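import Cfsg.Agent.Lib.J4P.Cons

/-! Elementary properties of the coordinates; the Sylow subgroup. -/

set_option autoImplicit false
set_option synthInstance.maxSize 4096

namespace Cfsg.Lib.J4P

open Matrix hiding mul_inv_rev
open Subgroup Cfsg.Lib.BG Cfsg.Lib.Transfer Cfsg.Lib.L72
open scoped Cfsg.Lib.Transfer

variable {G : Type*} [Group G] {a b k l n s x y : G} {v w : V3} {U : Subgroup G}

theorem card_fib [Finite G] {α : Type*} (φ : G → α) (S : Finset α) (W : Subgroup G) (h : ∀ u ∈ U, φ u ∈ S)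
    (e : ∀ u ∈ U, ∀ v ∈ U, φ u = φ v → u⁻¹ * v ∈ W) : Nat.card U ≤ S.card * Nat.card W := by
  classical
  let r : α → G := fun a => if h : ∃ u ∈ U, φ u = a then h.choose else 1
  have hr : ∀ u ∈ U, r (φ u) ∈ U ∧ φ (r (φ u)) = φ u := fun u hu => by
    have : ∃ v ∈ U, φ v = φ u := ⟨u, hu, rfl⟩
    simp only [r, dif_pos this]; exact this.choose_spec
  rw [← Nat.card_eq_finsetCard, ← Nat.card_prod]
  exact Nat.card_le_card_of_injective (fun u => (⟨φ u, h u u.2⟩, ⟨_, e _ (hr u u.2).1 u u.2 (hr u u.2).2⟩)) fun u v k => by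
    simp only [Prod.mk.injEq, Subtype.mk.injEq] at k
    exact Subtype.ext (mul_left_cancel (k.1 ▸ k.2 :))

theorem card_orb [Finite G] (S : Finset G) (h : ∀ u ∈ U, u * s * u⁻¹ ∈ S) : Nat.card U ≤ S.card * Nat.card ↥(U ⊓ 𝐂[s]) :=
  card_fib _ S _ h fun u hu v hv e => mem_inf.2 ⟨mul_mem (inv_mem hu) hv, mem_cent1.2 (by
    rw [mul_assoc, mul_inv_eq_iff_eq_mul.1 e.symm]; group)⟩

theorem ea_card {M : Type*} [Monoid M] (X : Set M) (h : ∀ a ∈ X, ∀ b ∈ X, ∀ c ∈ X,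
    a = 1 ∨ b = 1 ∨ a = b ∨ c = 1 ∨ c = a ∨ c = b ∨ c = a * b) : ∃ S : Finset M, S.card ≤ 4 ∧ ∀ x ∈ X, x ∈ S := by
  classical
  by_cases k : ∃ a ∈ X, ∃ b ∈ X, a ≠ 1 ∧ b ≠ 1 ∧ a ≠ b
  · obtain ⟨a, ha, b, hb, a1, b1, ab⟩ := k
    exact ⟨{1, a, b, a * b}, Finset.card_le_four, fun c hc => by simpa [a1, b1, ab] using h a ha b hb c hc⟩
  push Not at k
  by_cases j : ∃ a ∈ X, a ≠ 1
  · obtain ⟨a, ha, a1⟩ := j
    exact ⟨{1, a}, Finset.card_le_two.trans (by decide), fun c hc => by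
      by_cases c1 : c = 1
      · simp [c1]
      · simp [k a ha c hc a1 c1]⟩
  · exact ⟨{1}, by simp, fun c hc => by push Not at j; simp [j c hc]⟩

theorem ea5' {a b c : S5} (ha : a * a = 1) (hb : b * b = 1) (hc : c * c = 1) (h1 : a * b = b * a) (h2 : a * c = c * a)
    (h3 : b * c = c * b) : a = 1 ∨ b = 1 ∨ a = b ∨ c = 1 ∨ c = a ∨ c = b ∨ c = a * b := by
  have := fun a1 b1 ab => ea5 a ha a1 b hb b1 ab h1 c h2 h3 hc
  tauto

/-- A submonoid of a finite group. -/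
def sg [Finite G] (M : Submonoid G) : Subgroup G :=
  { M with
    inv_mem' := fun {a} h => by
      have := M.pow_mem h (orderOf a - 1)
      rwa [eq_inv_of_mul_eq_one_left (show a ^ (orderOf a - 1) * a = 1 by
        rw [← pow_succ, Nat.sub_add_cancel (orderOf_pos a), pow_orderOf_eq_one])] at this }

/-- Pure tensors. -/
def pt (n : N) (w : V3) : Λ := fun i => w i • n

theorem act_add (s : S5) (m : M3) (x y : Λ) : act s m (x + y) = act s m x + act s m y := by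
  ext i; simp only [act, Pi.add_apply, ν_add, smul_add]; abel
theorem act_one (s : S5) (x : Λ) (i : Fin 3) : act s 1 x i = ν s (x i) := by fin_cases i <;> simp [act, one_apply]
theorem act_pt (s : S5) (m : M3) (n : N) (w : V3) : act s m (pt n w) = pt (ν s n) (m *ᵥ w) := by
  ext i; simp [act, pt, mulVec, dotProduct, Fin.sum_univ_three, add_smul, mul_smul]
theorem q_pt (n : N) (w : V3) : q (pt n w) = 0 := by ext i; fin_cases i <;> simp [q, pt]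
theorem pt_add (n m : N) (w : V3) : pt (n + m) w = pt n w + pt m w := by ext i; simp [pt]
theorem pt_eq {n m : N} (h : v ≠ w) (w0 : w ≠ 0) (v0 : v ≠ 0) (e : pt n v = pt m w) : m = 0 := by
  have : ∀ v w : V3, v ≠ w → w ≠ 0 → v ≠ 0 → (∃ i, v i = 0 ∧ w i = 1) ∨ ∃ i j, v i = 1 ∧ w i = 0 ∧ v j = 1 ∧ w j = 1 := by decide
  rcases this v w h w0 v0 with ⟨i, h1, h2⟩ | ⟨i, j, h1, h2, h3, h4⟩
  · simpa [pt, h1, h2] using (congrFun e i).symm
  · have := congrFun e i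
    have := congrFun e j
    simp_all [pt]
theorem β_nd {x : Λ} (h : x ≠ 0) : ∃ y y', β y x ≠ 0 ∧ β y' x ≠ 0 ∧ β y x ≠ β y' x ∧ ∃ i, ∀ x, β y x i = 0 := by
  obtain ⟨i, h⟩ := Function.ne_iff.1 h
  obtain ⟨m, e⟩ := f_nd _ h
  rw [f_comm] at e
  fin_cases i
  exacts [⟨![0, m, 0], ![0, 0, m], by simp_all [β, funext_iff, Fin.forall_fin_succ, Fin.exists_fin_succ]⟩,
    ⟨![m, 0, 0], ![0, 0, m], by simp_all [β, funext_iff, Fin.forall_fin_succ, Fin.exists_fin_succ]⟩,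
    ⟨![m, 0, 0], ![0, m, 0], by simp_all [β, funext_iff, Fin.forall_fin_succ, Fin.exists_fin_succ]⟩]
theorem β_add (x y z : Λ) : β x (y + z) = β x y + β x z := by ext i; fin_cases i <;> simp [β] <;> abel

/-- Upper triangular matrices. -/
abbrev U3 (m : M3) : Prop := m 1 0 = 0 ∧ m 2 0 = 0 ∧ m 2 1 = 0

theorem U3.diag {m : M3} (h : U3 m) (d : m.det = 1) : m 0 0 = 1 ∧ m 1 1 = 1 ∧ m 2 2 = 1 := by
  rw [det_fin_three, h.1, h.2.1, h.2.2] at d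
  generalize m 0 0 = a, m 1 1 = b, m 2 2 = c at d
  simp only [mul_zero, zero_mul, sub_zero, add_zero] at d
  revert a b c; decide

namespace Cd

variable (D : Cd G)

theorem σ_L (h : l ∈ D.L) : D.σ l = 1 := ((D.ker (D.LK h)).1 h).1
theorem g_L (h : l ∈ D.L) : D.g l = 1 := ((D.ker (D.LK h)).1 h).2
theorem σ_one : D.σ 1 = 1 := D.σ_L (one_mem _)
theorem g_one : D.g 1 = 1 := D.g_L (one_mem _)
theorem σ_inv (h : k ∈ D.K) : D.σ k⁻¹ = (D.σ k)⁻¹ :=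
  eq_inv_of_mul_eq_one_left (by rw [← D.σ_mul (inv_mem h) h, inv_mul_cancel, D.σ_one])
theorem g_inv (h : k ∈ D.K) : D.g k * D.g k⁻¹ = 1 := by rw [← D.g_mul h (inv_mem h), mul_inv_cancel, D.g_one]
theorem g_inv' (h : k ∈ D.K) : D.g k⁻¹ * D.g k = 1 := by rw [← D.g_mul (inv_mem h) h, inv_mul_cancel, D.g_one]
theorem det_g (h : k ∈ D.K) : (D.g k).det = 1 := det1 (D.g_inv h)
theorem σ_conj (h : k ∈ D.K) (ha : a ∈ D.K) : D.σ (k * a * k⁻¹) = D.σ k * D.σ a * (D.σ k)⁻¹ := by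
  rw [D.σ_mul (mul_mem h ha) (inv_mem h), D.σ_mul h ha, D.σ_inv h]
theorem g_conj (h : k ∈ D.K) (ha : a ∈ D.K) : D.g (k * a * k⁻¹) = D.g k * D.g a * D.g k⁻¹ := by
  rw [D.g_mul (mul_mem h ha) (inv_mem h), D.g_mul h ha]
theorem σ_pow (h : k ∈ D.K) (j : ℕ) : D.σ (k ^ j) = D.σ k ^ j := by
  induction j with
  | zero => simpa using D.σ_one
  | succ j ih => rw [pow_succ, pow_succ, D.σ_mul (pow_mem h j) h, ih]
theorem g_pow (h : k ∈ D.K) (j : ℕ) : D.g (k ^ j) = D.g k ^ j := by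
  induction j with
  | zero => simpa using D.g_one
  | succ j ih => rw [pow_succ, pow_succ, D.g_mul (pow_mem h j) h, ih]
theorem nml (h : k ∈ D.K) (hl : l ∈ D.L) : k * l * k⁻¹ ∈ D.L := (D.ker (mul_mem (mul_mem h (D.LK hl)) (inv_mem h))).2
  ⟨by rw [D.σ_conj h (D.LK hl), D.σ_L hl, mul_one, mul_inv_cancel], by rw [D.g_conj h (D.LK hl), D.g_L hl, mul_one, D.g_inv h]⟩
theorem mem_L (ha : a ∈ D.K) (hb : b ∈ D.K) (h1 : D.σ a = D.σ b) (h2 : D.g a = D.g b) : a⁻¹ * b ∈ D.L :=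
  (D.ker (mul_mem (inv_mem ha) hb)).2 ⟨by rw [D.σ_mul (inv_mem ha) hb, D.σ_inv ha, h1, inv_mul_cancel],
    by rw [D.g_mul (inv_mem ha) hb, ← h2, D.g_inv' ha]⟩
theorem ζ_zero : D.ζ 0 = 1 := by simpa using D.ζ_add 0 0
theorem ζ_sq (v : V3) : D.ζ v * D.ζ v = 1 := by rw [← D.ζ_add, add2, D.ζ_zero]
theorem ζ_inv (v : V3) : (D.ζ v)⁻¹ = D.ζ v := inv_eq_of_mul_eq_one_left (D.ζ_sq v)
theorem ζ_eq (h : D.ζ v = D.ζ w) : v = w := add0.1 (D.ζ_inj (by rw [D.ζ_add, h, D.ζ_sq]))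
theorem ζ_K (v : V3) : D.ζ v ∈ D.K := D.LK (D.ζ_mem v)
theorem c_ζ (v : V3) : D.c (D.ζ v) = 0 := (D.c_zero (D.ζ_mem v)).2 ⟨v, rfl⟩
theorem c_one : D.c 1 = 0 := D.ζ_zero ▸ D.c_ζ 0
theorem c_inv (h : l ∈ D.L) : D.c l⁻¹ = D.c l := add0.1 (by rw [← D.c_mul (inv_mem h) h, inv_mul_cancel, D.c_one])
theorem c_eq (ha : a ∈ D.L) (hb : b ∈ D.L) (h : D.c a = D.c b) : ∃ v, b = a * D.ζ v :=
  let ⟨v, e⟩ := (D.c_zero (mul_mem (inv_mem ha) hb)).1 (by rw [D.c_mul (inv_mem ha) hb, D.c_inv ha, h, add2])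
  ⟨v, by rw [e, mul_inv_cancel_left]⟩
theorem fix_iff (h : k ∈ D.K) : k * D.ζ v = D.ζ v * k ↔ v ᵥ* D.g k = v :=
  ⟨fun e => D.ζ_eq (mul_left_cancel (a := k) (by rw [e, ← mul_inv_eq_iff_eq_mul, D.ζ_conj h])),
    fun e => mul_inv_eq_iff_eq_mul.1 (by nth_rw 1 [← e]; exact D.ζ_conj h v)⟩
theorem ζ_conj' (h : k ∈ D.K) (v : V3) : k * D.ζ v * k⁻¹ = D.ζ (v ᵥ* D.g k⁻¹) := by
  rw [← D.ζ_conj h (v ᵥ* D.g k⁻¹), vecMul_vecMul, D.g_inv' h, vecMul_one]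
theorem ζ_comm (h : l ∈ D.L) (v : V3) : l * D.ζ v = D.ζ v * l := (D.fix_iff (D.LK h)).2 (by rw [D.g_L h, vecMul_one])
theorem g_eq_one (h : k ∈ D.K) (e : ∀ v, k * D.ζ v = D.ζ v * k) : D.g k = 1 :=
  ext_iff_vecMul.2 fun v => by rw [(D.fix_iff h).1 (e v), vecMul_one]
theorem comm_iff (ha : a ∈ D.L) (hb : b ∈ D.L) : a * b = b * a ↔ β (D.c a) (D.c b) = 0 := by
  rw [← mul_inv_eq_one, mul_inv_rev, ← mul_assoc, D.comm ha hb]
  exact ⟨D.ζ_inj, fun e => e ▸ D.ζ_zero⟩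
theorem t2_L (h : l ∈ D.L) : T2 l := (t2_inv (by rw [D.sq h, D.ζ_sq])).sq
theorem pg_L : IsPGroup 2 D.L := pg_of fun _ => D.t2_L
theorem pow4 (h : l ∈ D.L) : l ^ 4 = 1 := by
  rw [show 4 = 2 * 2 from rfl, pow_mul, pow_two, pow_two, D.sq h, D.ζ_sq]

/-- The centre of `L`. -/
def Z : Subgroup G := (MonoidHom.mk' (fun v : Multiplicative V3 => D.ζ v.toAdd) fun _ _ => D.ζ_add _ _).range

theorem mem_Z : x ∈ D.Z ↔ ∃ v, D.ζ v = x := Iff.rfl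
theorem ζ_Z (v : V3) : D.ζ v ∈ D.Z := ⟨v, rfl⟩
theorem ZL : D.Z ≤ D.L := by rintro _ ⟨v, rfl⟩; exact D.ζ_mem _
theorem card_Z : Nat.card D.Z = 8 := by
  rw [Z, ← Nat.card_congr (MonoidHom.ofInjective fun (_ _ : Multiplicative V3) h => D.ζ_eq h).toEquiv]; simp
theorem KZ : D.K ≤ 𝐍(D.Z) := le_norm_iff.2 fun _ hk _ ⟨_, e⟩ => e ▸ D.mem_Z.2 ⟨_, (D.ζ_conj' hk _).symm⟩
theorem hK' (h : x ∈ 𝐍(D.Z)) : x ∈ D.K := D.hK x fun v => let ⟨w, e⟩ := conj_mem_of_norm h (D.ζ_Z v); ⟨w, e.symm⟩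

/-- The involution. -/
def z : G := D.ζ ![0, 0, 1]

theorem z_sq : D.z * D.z = 1 := D.ζ_sq _
theorem z_ne : D.z ≠ 1 := fun h => absurd (D.ζ_inj h) (by decide)
theorem mem_H (h : k ∈ D.K) : k ∈ 𝐂[D.z] ↔ D.g k 2 0 = 0 ∧ D.g k 2 1 = 0 := by
  have := D.det_g h
  rw [mem_cent1, z, D.fix_iff h]
  refine ⟨fun e => ⟨by simpa [vecMul, dotProduct, Fin.sum_univ_three] using congrFun e 0,
    by simpa [vecMul, dotProduct, Fin.sum_univ_three] using congrFun e 1⟩, fun e => ?_⟩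
  rw [det_fin_three, e.1, e.2] at this
  rcases z2 (D.g k 2 2) with j | j
  · simp [j] at this
  · ext i; fin_cases i <;> simp [vecMul, dotProduct, Fin.sum_univ_three, e, j]
theorem z_conj (h : v ≠ 0) : ∃ k ∈ D.K, k * D.ζ v * k⁻¹ = D.z := by
  obtain ⟨m, hm, e⟩ := tr3 v h
  have : ∀ m ∈ invs, m * m = 1 := by decide +kernel
  obtain ⟨k, hk, -, e'⟩ := D.surj 1 m (det1 (this m hm))
  exact ⟨k, hk, by rw [← e, ← e', D.ζ_conj hk, z]⟩

variable [Finite G]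

theorem card_c (h : U ≤ D.L) (S : Finset Λ) (e : ∀ l ∈ U, D.c l ∈ S) : Nat.card U ≤ S.card * 8 :=
  D.card_Z ▸ card_fib D.c S _ e fun u hu v hv k => let ⟨w, e⟩ := D.c_eq (h hu) (h hv) k; ⟨w, by rw [e, inv_mul_cancel_left]; rfl⟩

/-- The Sylow subgroup. -/
def T : Subgroup G := sg
  { carrier := {k | k ∈ D.K ∧ ν (D.σ k) e1 = e1 ∧ U3 (D.g k)}
    one_mem' := ⟨one_mem _, by rw [D.σ_one, ν_one], by rw [D.g_one]; decide⟩
    mul_mem' := fun h k => ⟨mul_mem h.1 k.1, by rw [D.σ_mul h.1 k.1, ν_mul, k.2.1, h.2.1], by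
      simp [U3, D.g_mul h.1 k.1, mul_apply, Fin.sum_univ_three, h.2.2, k.2.2]⟩ }

theorem mem_T : k ∈ D.T ↔ k ∈ D.K ∧ ν (D.σ k) e1 = e1 ∧ U3 (D.g k) := Iff.rfl
theorem LT : D.L ≤ D.T := fun _ h => ⟨D.LK h, by rw [D.σ_L h, ν_one], by rw [D.g_L h]; decide⟩
theorem TK : D.T ≤ D.K := fun _ h => h.1
theorem TH : D.T ≤ 𝐂[D.z] := fun _ h => (D.mem_H h.1).2 h.2.2.2

theorem pg_T : IsPGroup 2 D.T := pg_of fun k h => by
  have : ∀ m : M3, U3 m → m.det = 1 → m * m * (m * m) = 1 := fun m u d => by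
    obtain ⟨d0, d1, d2⟩ := u.diag d
    rw [eta_fin_three m, d0, d1, d2, u.1, u.2.1, u.2.2]
    generalize m 0 1 = a, m 0 2 = b, m 1 2 = c
    revert a b c; decide +kernel
  have h2 := mul_mem h.1 h.1
  exact (D.t2_L ((D.ker (mul_mem h2 h2)).2 ⟨by rw [D.σ_mul h2 h2, D.σ_mul h.1 h.1, (d8 _ h.2.1).1],
    by rw [D.g_mul h2 h2, D.g_mul h.1 h.1, this _ h.2.2 (D.det_g h.1)]⟩)).sq.sq

theorem card_T : Nat.card D.T ≤ 2 ^ 21 := by
  have := card_fib (U := D.T) (fun k => (D.σ k, D.g k 0 1, D.g k 0 2, D.g k 1 2))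
    ((Finset.univ.filter fun s : S5 => ν s e1 = e1) ×ˢ Finset.univ) D.L (fun u h => by simp [h.2.1]) fun u hu v hv e => by
      simp only [Prod.mk.injEq] at e
      have h1 := hu.2.2.diag (D.det_g hu.1)
      have h2 := hv.2.2.diag (D.det_g hv.1)
      refine D.mem_L hu.1 hv.1 e.1 ?_
      ext i j
      fin_cases i <;> fin_cases j <;> simp [e, h1, h2, hu.2.2, hv.2.2]
  simpa [card_d8, D.card_L] using this

theorem F1a (hs : s ∈ D.K) (hu : U3 (D.g s)) (h1 : D.σ s ≠ 1) (h : U ≤ D.L) (e : ∀ l ∈ U, D.c (s * l * s⁻¹) = D.c l) : Nat.card U ≤ 2 ^ 9 := by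
  obtain ⟨d0, d1, d2⟩ := hu.diag (D.det_g hs)
  obtain ⟨u0, u1, u2⟩ := hu
  let X : Fin 3 → Subgroup G := fun i =>
    { carrier := {l | l ∈ D.L ∧ D.c l i = 0}
      one_mem' := ⟨one_mem _, by rw [D.c_one]; rfl⟩
      mul_mem' := fun h k => ⟨mul_mem h.1 k.1, by rw [D.c_mul h.1 k.1, Pi.add_apply, h.2, k.2, add_zero]⟩
      inv_mem' := fun h => ⟨inv_mem h.1, by rw [D.c_inv h.1, h.2]⟩ }
  have k : ∀ i, ∀ V ≤ U, (∀ l ∈ V, ν (D.σ s) (D.c l i) = D.c l i) → Nat.card V ≤ 4 * Nat.card ↥(V ⊓ X i) := fun i V hV j =>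
    (card_fib (fun l => D.c l i) (Finset.univ.filter fun n => ν (D.σ s) n = n) (V ⊓ X i) (fun u hu => by simp [j u hu])
      fun u hu v hv e => mem_inf.2 ⟨mul_mem (inv_mem hu) hv, mul_mem (inv_mem (h (hV hu))) (h (hV hv)), by
        rw [D.c_mul (inv_mem (h (hV hu))) (h (hV hv)), D.c_inv (h (hV hu)), Pi.add_apply, e, add2]⟩).trans
      (Nat.mul_le_mul_right _ (fixN _ h1))
  have e' : ∀ l ∈ U, ∀ i, act (D.σ s) (D.g s) (D.c l) i = D.c l i := fun l hl i => by rw [← D.c_conj hs (h hl), e l hl]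
  have k2 := k 2 U le_rfl fun l hl => by simpa [act, u1, u2, d2] using e' l hl 2
  have k1 := k 1 (U ⊓ X 2) inf_le_left fun l hl => by simpa [act, u0, d1, hl.2.2] using e' l hl.1 1
  have k0 := k 0 (U ⊓ X 2 ⊓ X 1) (inf_le_left.trans inf_le_left) fun l hl => by
    simpa [act, d0, hl.2.2, hl.1.2.2] using e' l hl.1.1 0
  have := D.card_c (U := U ⊓ X 2 ⊓ X 1 ⊓ X 0) (fun l hl => hl.2.1) {0} fun l hl => Finset.mem_singleton.2 (by
    ext i; fin_cases i; exacts [hl.2.2, hl.1.2.2, hl.1.1.2.2])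
  rw [Finset.card_singleton] at this
  omega

theorem F1b (hs : s ∈ D.K) (hu : U3 (D.g s)) (h1 : s ∉ D.L) (h : U ≤ D.L) (e : ∀ l ∈ U, D.c (s * l * s⁻¹) = D.c l) : Nat.card U ≤ 2 ^ 11 := by
  by_cases h2 : D.σ s = 1
  swap
  · exact (D.F1a hs hu h2 h e).trans (by norm_num)
  obtain ⟨d0, d1, d2⟩ := hu.diag (D.det_g hs)
  obtain ⟨u0, u1, u2⟩ := hu
  have e' : ∀ l ∈ U, ∀ i, act 1 (D.g s) (D.c l) i = D.c l i := fun l hl i => by rw [← h2, ← D.c_conj hs (h hl), e l hl]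
  refine (D.card_c h (Finset.univ.image fun x : N × N => if D.g s 0 1 = 1 then ![x.1, D.g s 0 2 • x.2, x.2] else ![x.1, x.2, 0])
    fun l hl => Finset.mem_image.2 ?_).trans ((Nat.mul_le_mul_right _ Finset.card_image_le).trans (by simp [card_N]))
  have k0 := e' l hl 0
  have k1 := e' l hl 1
  simp only [act, ν_one, d0, d1, u0, one_smul, zero_smul, zero_add, add_assoc, add_eq_left] at k0 k1
  rcases z2 (D.g s 0 1) with j | j
  · refine ⟨(D.c l 0, D.c l 1), Finset.mem_univ _, ?_⟩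
    have : D.c l 2 = 0 := by
      by_contra j2
      refine h1 ((D.ker hs).2 ⟨h2, ?_⟩)
      ext i j
      fin_cases i <;> fin_cases j <;> simp_all
    rw [if_neg (by simp [j])]
    ext i; fin_cases i <;> simp [this]
  · refine ⟨(D.c l 0, D.c l 2), Finset.mem_univ _, ?_⟩
    rw [if_pos j]
    rw [j, one_smul, add0] at k0
    ext i; fin_cases i <;> simp [k0]

theorem NK_T (hk : k ∈ D.K) (h : k ∈ 𝐍(D.T)) : k ∈ D.T := by
  have s1 : ∀ d, ν d e1 = e1 → ν d (ν (D.σ k) e1) = ν (D.σ k) e1 := fun d e => by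
    obtain ⟨t, ht, rfl, e2⟩ := D.surj d 1 det_one
    have := (conj_mem_of_norm (inv_mem h) (show t ∈ D.T from ⟨ht, e, by rw [e2]; decide⟩)).2.1
    rw [D.σ_conj (inv_mem hk) ht, D.σ_inv hk, inv_inv, ν_mul, ν_mul] at this
    simpa using congrArg (ν (D.σ k)) this
  refine ⟨hk, (fix_d _ (s1 _ (by decide +kernel)) (s1 _ (by decide +kernel))).resolve_left (by rw [ν_eq_zero]; decide), ?_⟩
  obtain ⟨t, ht, e1, e2⟩ := D.surj 1 !![1, 1, 0; 0, 1, 1; 0, 0, 1] (by decide)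
  have tT : t ∈ D.T := ⟨ht, by rw [e1, ν_one], by rw [e2]; decide⟩
  have a := conj_mem_of_norm h tT
  have b := conj_mem_of_norm (inv_mem h) tT
  have a1 : D.g (k * t * k⁻¹) * D.g k = D.g k * D.g t := by rw [← D.g_mul a.1 hk, ← D.g_mul hk ht]; congr 1; group
  have b1 : D.g k * D.g (k⁻¹ * t * k⁻¹⁻¹) = D.g t * D.g k := by rw [← D.g_mul hk b.1, ← D.g_mul ht hk]; congr 1; group
  have a2 := congrFun (congrFun a1 2) 2
  have b2 := congrFun (congrFun b1 0) 0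
  have b3 := congrFun (congrFun b1 1) 0
  simp [mul_apply, Fin.sum_univ_three, e2, a.2.2, a.2.2.diag (D.det_g a.1), b.2.2, b.2.2.diag (D.det_g b.1),
    -inv_inv] at a2 b2 b3
  exact ⟨b2, b3, a2⟩

end Cd

end Cfsg.Lib.J4P
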