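import Cfsg.Agent.Lib.J4P.Ten
import Cfsg.Agent.Lib.L72.Tools
import Cfsg.Agent.Lib.PLocal.NatSec
import Cfsg.Agent.Lib.PGroup.Frattini

/-! Coordinates for the group `2^{3+12}.(S₅ × L₃(2))`. -/

set_option autoImplicit false

namespace Cfsg.Lib.J4P

open Subgroup Matrix Cfsg.Lib.BG Cfsg.Lib.Transfer Cfsg.Lib.L72 Cfsg.Lib.PLocal
open scoped Cfsg.Lib.Transfer

universe u

/-- Coordinates. -/
structure Cd (G : Type*) [Group G] where
  K : Subgroup G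
  L : Subgroup G
  c : G → Λ
  ζ : V3 → G
  σ : G → S5
  g : G → M3
  LK : L ≤ K
  card_L : Nat.card L = 2 ^ 15
  σ_mul : ∀ {a b}, a ∈ K → b ∈ K → σ (a * b) = σ a * σ b
  g_mul : ∀ {a b}, a ∈ K → b ∈ K → g (a * b) = g a * g b
  ker : ∀ {a}, a ∈ K → (a ∈ L ↔ σ a = 1 ∧ g a = 1)
  surj : ∀ s (m : M3), m.det = 1 → ∃ k ∈ K, σ k = s ∧ g k = m
  c_mul : ∀ {a b}, a ∈ L → b ∈ L → c (a * b) = c a + c b
  c_surj : ∀ x, ∃ l ∈ L, c l = x
  ζ_add : ∀ v w, ζ (v + w) = ζ v * ζ w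
  ζ_inj : ∀ {v}, ζ v = 1 → v = 0
  ζ_mem : ∀ v, ζ v ∈ L
  c_zero : ∀ {l}, l ∈ L → (c l = 0 ↔ ∃ v, ζ v = l)
  c_conj : ∀ {k l}, k ∈ K → l ∈ L → c (k * l * k⁻¹) = act (σ k) (g k) (c l)
  ζ_conj : ∀ {k}, k ∈ K → ∀ v, k * ζ (v ᵥ* g k) * k⁻¹ = ζ v
  comm : ∀ {a b}, a ∈ L → b ∈ L → a * b * a⁻¹ * b⁻¹ = ζ (β (c a) (c b))
  sq : ∀ {a}, a ∈ L → a * a = ζ (q (c a))
  hK : ∀ x, (∀ v, ∃ w, x * ζ v * x⁻¹ = ζ w) → x ∈ K

variable {G : Type u} [Group G] {K L Z : Subgroup G}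

open scoped IsMulCommutative in
theorem exists_rep (h : Z ≤ L) (hd : ⁅L, L⁆ ≤ Z) (hL : K ≤ 𝐍(L)) (hZ : K ≤ 𝐍(Z)) :
    ∃ (W : Type u) (_ : AddCommGroup W), Nonempty (SecRep K L Z W) := by
  classical
  have : (Z.subgroupOf L).Normal := normal_subgroupOf_of_le_normalizer (norm_of_comm_le ((commutator_mono h le_rfl).trans hd))
  have : IsMulCommutative (L ⧸ Z.subgroupOf L) := Normal.quotient_commutative_iff_commutator_le.2 (by
    rw [_root_.commutator_def, commutator_le]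
    exact fun a _ b _ => hd (commutator_mem_commutator a.2 b.2))
  let c : K →* MulAut L := L.normalizerMonoidHom.comp (inclusion hL)
  have hc : ∀ l : K, Z.subgroupOf L ≤ (Z.subgroupOf L).comap (c l).toMonoidHom := fun l v hv =>
    (mem_normalizer_iff.1 (hZ l.2) v).1 hv
  refine ⟨Additive (L ⧸ Z.subgroupOf L), inferInstance, ⟨{
    π := fun x => if h : x ∈ L then Additive.ofMul ((⟨x, h⟩ : L) : L ⧸ Z.subgroupOf L) else 0
    φ := { toFun := fun l => MonoidHom.toAdditive (QuotientGroup.map _ _ (c l).toMonoidHom (hc l))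
           map_one' := ?_
           map_mul' := fun a b => ?_ }
    add := fun x hx y hy => ?_
    surj := fun w => ?_
    ker := fun v hv => ?_
    conj := fun l v hv => ?_ }⟩⟩
  · refine AddMonoidHom.ext fun w => ?_
    obtain ⟨v, rfl⟩ := QuotientGroup.mk_surjective (Additive.toMul w)
    change Additive.ofMul ((c 1 v : L) : L ⧸ Z.subgroupOf L) = _
    rw [map_one]; rfl
  · refine AddMonoidHom.ext fun w => ?_
    obtain ⟨v, rfl⟩ := QuotientGroup.mk_surjective (Additive.toMul w)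
    change Additive.ofMul ((c (a * b) v : L) : L ⧸ Z.subgroupOf L) = _
    rw [map_mul]; rfl
  · rw [dif_pos hx, dif_pos hy, dif_pos (mul_mem hx hy)]; rfl
  · obtain ⟨v, rfl⟩ := QuotientGroup.mk_surjective (Additive.toMul w)
    exact ⟨v, v.2, dif_pos v.2⟩
  · rw [dif_pos hv]
    exact QuotientGroup.eq_one_iff (N := Z.subgroupOf L) (⟨v, hv⟩ : L)
  · rw [dif_pos hv, dif_pos ((mem_normalizer_iff.1 (hL l.2) v).1 hv)]; rfl

theorem rep_card {V : Subgroup G} {W : Type*} [AddCommGroup W] (r : SecRep K V Z W) (h : Z ≤ V) :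
    Nat.card W * Nat.card Z = Nat.card V := by
  let φ : V →* Multiplicative W := .mk' (fun v => .ofAdd (r.π v)) fun a b => congrArg Multiplicative.ofAdd (r.add _ a.2 _ b.2)
  have e : φ.ker = Z.subgroupOf V := Subgroup.ext fun v => r.ker _ v.2
  rw [← φ.ker.card_mul_index, index_ker, e, mul_comm, MonoidHom.range_eq_top.2 fun w => let ⟨v, h, e⟩ := r.surj w.toAdd; ⟨⟨v, h⟩, e⟩,
    card_top, Nat.card_congr (subgroupOfEquivOfLe h).toEquiv]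
  rfl

/-- The action of the quotient. -/
theorem rep_act {V : Subgroup G} {W : Type*} [AddCommGroup W] (r : SecRep K V Z W) (π : K →* Γ) (hπ : Function.Surjective π)
    (h : ∀ k, π k = 1 → ∀ v ∈ V, r.π (k * v * (k : G)⁻¹) = r.π v) :
    ∃ _ : DistribMulAction Γ W, ∀ k : K, ∀ v ∈ V, π k • r.π v = r.π (k * v * (k : G)⁻¹) := by
  let ψ := π.liftOfSurjective hπ ⟨r.φ.toHomUnits, fun k hk => Units.ext (AddMonoidHom.ext fun w => by
    obtain ⟨v, hv, rfl⟩ := r.surj w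
    exact (r.conj k v hv).trans (h k hk v hv))⟩
  refine ⟨DistribMulAction.compHom W ((Units.coeHom _).comp ψ), fun k v hv => ?_⟩
  show (ψ (π k)).1 _ = _
  rw [MonoidHom.liftOfRightInverse_comp_apply]
  exact r.conj k v hv

theorem exists_cd [Finite G] (hZdef : Z = (center L).map L.subtype) (hLs : IsSpecial 2 L) (hLc : Nat.card L = 2 ^ 15)
    (hZ2 : ∀ z ∈ Z, z * z = 1) (hZc : Nat.card Z = 8) (hK : K = 𝐍(Z)) (LK : L ≤ K) (π : K →* Γ) (hπ : Function.Surjective π)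
    (kπ : ∀ k, π k = 1 ↔ k.1 ∈ L) (hxy : ∀ x y : G, x ∈ K → y ∈ K → orderOf x = 3 → orderOf y = 7 → x * y = y * x →
      L ⊓ 𝐂[x] = Z ∧ L ⊓ 𝐂[y] = ⊥) : Nonempty (Cd G) := by
  classical
  have ZL : Z ≤ L := hZdef ▸ map_subtype_le _
  have zc : ∀ {z l}, z ∈ Z → l ∈ L → l * z = z * l := fun {z l} hz hl => by
    obtain ⟨z, h, rfl⟩ := hZdef.le hz
    exact congrArg Subtype.val (mem_center_iff.1 h ⟨l, hl⟩)
  have dZ : ⁅L, L⁆ = Z := by rw [hZdef, ← hLs.2.2, map_subtype_commutator]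
  have sZ : ∀ {l}, l ∈ L → l * l ∈ Z := fun {l} hl =>
    hZdef.ge ⟨_, hLs.2.1 ▸ PGroup.pow_mem_frattini hLs.1 ⟨l, hl⟩, by simp [pow_two]⟩
  have KL : K ≤ 𝐍(L) := le_norm_iff.2 fun k hk l hl => (kπ (⟨k, hk⟩ * ⟨l, LK hl⟩ * ⟨k, hk⟩⁻¹)).1 (by
    rw [map_mul, map_mul, (kπ ⟨l, LK hl⟩).2 hl, mul_one, ← map_mul, mul_inv_cancel, map_one])
  have cZ : ∀ {a b}, a ∈ L → b ∈ L → a * b * a⁻¹ * b⁻¹ ∈ Z := fun ha hb => dZ ▸ comm_mem_comm ha hb
  obtain ⟨A, _, ⟨r⟩⟩ := exists_rep ZL dZ.le KL hK.le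
  obtain ⟨B, _, ⟨t⟩⟩ := exists_rep (Z := ⊥) bot_le (comm_eq_bot_iff.2 fun z hz l hl => zc hz (ZL hl)).le hK.le (norm_bot (G := G) ▸ le_top)
  have ti : ∀ {a b}, a ∈ Z → b ∈ Z → t.π a = t.π b → a = b := fun {a b} ha hb e => inv_mul_eq_one.1 ((t.ker _ (mul_mem (inv_mem ha) hb)).1
    (by rw [t.add _ (inv_mem ha) _ hb, t.map_inv ha, e, neg_add_cancel]))
  have re : ∀ {a b}, a ∈ L → b ∈ L → r.π a = r.π b → ∃ z ∈ Z, b = a * z := fun {a b} ha hb e => ⟨_, (r.ker _ (mul_mem (inv_mem ha) hb)).1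
    (by rw [r.add _ (inv_mem ha) _ hb, r.map_inv ha, e, neg_add_cancel]), by group⟩
  let _ : Module F A := AddCommGroup.zmodModule fun x => by
    obtain ⟨v, hv, rfl⟩ := r.surj x
    rw [two_nsmul, ← r.add _ hv _ hv, r.ker _ (mul_mem hv hv)]; exact sZ hv
  let _ : Module F B := AddCommGroup.zmodModule fun x => by
    obtain ⟨v, hv, rfl⟩ := t.surj x
    rw [two_nsmul, ← t.add _ hv _ hv, hZ2 v hv, t.map_one]
  obtain ⟨_, aA⟩ := rep_act r π hπ fun k hk v hv => by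
    have := (kπ k).1 hk
    rw [r.add _ (mul_mem this hv) _ (inv_mem this), r.add _ this _ hv, r.map_inv this]; abel
  obtain ⟨_, aB⟩ := rep_act t π hπ fun k hk v hv => by rw [zc hv ((kπ k).1 hk), mul_inv_cancel_right]
  choose ρ hρ ρe using r.surj
  choose τ hτ τe using t.surj
  have cm : ∀ {a b}, a ∈ L → b ∈ L → t.π (ρ (r.π a) * ρ (r.π b) * (ρ (r.π a))⁻¹ * (ρ (r.π b))⁻¹) = t.π (a * b * a⁻¹ * b⁻¹) :=
    fun {a b} ha hb => by
      obtain ⟨y, hy, e⟩ := re ha (hρ _) (ρe _).symm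
      obtain ⟨z, hz, e'⟩ := re hb (hρ _) (ρe _).symm
      rw [e, e']; congr 1
      calc _ = a * (y * (b * z)) * y⁻¹ * (a⁻¹ * z⁻¹) * b⁻¹ := by group
        _ = _ := by rw [← zc hy (mul_mem hb (ZL hz)), zc (inv_mem hz) (inv_mem ha)]; group
  have cl : ∀ {a b c}, a ∈ L → b ∈ L → c ∈ L → t.π (a * b * c * (a * b)⁻¹ * c⁻¹) = t.π (a * c * a⁻¹ * c⁻¹) + t.π (b * c * b⁻¹ * c⁻¹) :=
    fun {a b c} ha hb hc => by
      rw [add_comm, ← t.add _ (cZ hb hc) _ (cZ ha hc), ← mul_assoc, ← mul_assoc, ← mul_assoc, ← zc (cZ hb hc) ha]; congr 1; group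
  have cs : ∀ {a b}, a ∈ L → b ∈ L → t.π (a * b * a⁻¹ * b⁻¹) = t.π (b * a * b⁻¹ * a⁻¹) := fun {a b} ha hb =>
    add0.1 (by rw [← t.add _ (cZ ha hb) _ (cZ hb ha), ← t.map_one]; congr 1; group)
  let b0 : A → A → B := fun x y => t.π (ρ x * ρ y * (ρ x)⁻¹ * (ρ y)⁻¹)
  have b1 : ∀ x y z, b0 (x + y) z = b0 x z + b0 y z := fun x y z => by
    rw [← cl (hρ x) (hρ y) (hρ z), ← cm (mul_mem (hρ x) (hρ y)) (hρ z), r.add _ (hρ x) _ (hρ y), ρe, ρe, ρe]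
  have b2 : ∀ x y, b0 x y = b0 y x := fun x y => cs (hρ x) (hρ y)
  let b : A →+ A →+ B := .mk' (fun x => .mk' (b0 x) fun y z => by rw [b2, b1, b2 y, b2 z]) fun x y => AddMonoidHom.ext (b1 x y)
  have be : ∀ {a c}, a ∈ L → c ∈ L → b (r.π a) (r.π c) = t.π (a * c * a⁻¹ * c⁻¹) := cm
  let p : A → B := fun x => t.π (ρ x * ρ x)
  have pe : ∀ {a}, a ∈ L → p (r.π a) = t.π (a * a) := fun {a} ha => by
    obtain ⟨z, hz, e⟩ := re ha (hρ _) (ρe _).symm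
    simp only [p]; rw [e, mul_assoc, ← mul_assoc z, ← zc hz ha, mul_assoc, hZ2 z hz, mul_one]
  have lift : ∀ s : S5, s * s * s = 1 → s ≠ 1 → ∃ x y : K, π x = (s, 1) ∧ π y = (1, y7) ∧ x ^ 3 = 1 ∧ y ^ 7 = 1 ∧
      L ⊓ 𝐂[x.1] = Z ∧ L ⊓ 𝐂[y.1] = ⊥ := fun s s3 s1 => by
    obtain ⟨k, e⟩ := hπ (s, y7)
    have s3' : s ^ 3 = 1 := by rw [pow_three', s3]
    have e1 : ∀ n, π (k ^ n) = (s ^ (n % 3), y7 ^ (n % 7)) := fun n => by
      rw [map_pow, e, Prod.pow_mk, ← pow_eq_pow_mod _ s3', ← pow_eq_pow_mod _ y7_pow]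
    have k1 : (k ^ 21).1 ∈ L := (kπ _).1 (e1 21)
    have k2 : k ^ 84 = 1 := Subtype.ext (by
      rw [show 84 = 21 + 21 + (21 + 21) from rfl, pow_add, pow_add]; exact hZ2 _ (sZ k1))
    have ex : π (k ^ 28) = (s, 1) := by simpa using e1 28
    have ey : π (k ^ 36) = (1, y7) := by simpa using e1 36
    have x3 : (k ^ 28) ^ 3 = 1 := by rw [← pow_mul, k2]
    have y3 : (k ^ 36) ^ 7 = 1 := by rw [← pow_mul, show 36 * 7 = 84 * 3 from rfl, pow_mul, k2, one_pow]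
    have : Fact (Nat.Prime 7) := ⟨by norm_num⟩
    exact ⟨_, _, ex, ey, x3, y3, hxy _ _ (k ^ 28).2 (k ^ 36).2
      ((orderOf_coe _).trans (orderOf_eq_prime x3 fun h => s1 (by simpa [h] using (congrArg Prod.fst ex).symm)))
      ((orderOf_coe _).trans (orderOf_eq_prime y3 fun h => y7_ne (by simpa [h] using (congrArg Prod.snd ey).symm)))
      (Commute.pow_pow_self k.1 28 36)⟩
  obtain ⟨x0, y, -, ey, -, y3, -, yL⟩ := lift (Equiv.swap 0 1 * Equiv.swap 1 2) (by decide) (by decide)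
  have f7' : ∀ x : B, ((1, y7) : Γ) • x = x → x = 0 := fun x e => by
    rw [← τe x, ← ey, aB _ _ (hτ x)] at e
    have := ti (conj_mem_of_norm (hK.le y.2) (hτ x)) (hτ x) e
    rw [← τe x, mem_bot.1 (yL.le ⟨ZL (hτ x), mem_cent1.2 (mul_inv_eq_iff_eq_mul.1 this).symm⟩), t.map_one]
  have H : TH A B b p := by
    refine ⟨?_, ?_, fun s s3 s1 x e => ?_, fun x e => ?_, f7', b2, fun γ x y => ?_, fun S h => ?_, fun x y => ?_, fun γ x => ?_⟩
    · have := rep_card r ZL; rw [hZc, hLc] at this; omega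
    · simpa [hZc] using rep_card t bot_le
    · obtain ⟨k, -, ek, -, k3, -, kL, -⟩ := lift s s3 s1
      rw [← ρe x, ← ek, aA _ _ (hρ x)] at e
      obtain ⟨z, hz, e1⟩ := re (hρ x) (conj_mem_of_norm (KL k.2) (hρ x)) e.symm
      have e2 : k * z * (k : G)⁻¹ = z := by rw [← mem_cent1.1 (kL.ge hz).2, mul_inv_cancel_right]
      have e3 : (k ^ 3).1 * ρ x * ((k ^ 3).1)⁻¹ = ρ x * z * z * z := by
        have : ∀ a b, k * (a * b) * (k : G)⁻¹ = k * a * (k : G)⁻¹ * (k * b * (k : G)⁻¹) := fun a b => by group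
        rw [show (k ^ 3).1 * ρ x * ((k ^ 3).1)⁻¹ = k * (k * (k * ρ x * (k : G)⁻¹) * (k : G)⁻¹) * (k : G)⁻¹ by
          simp only [pow_three', coe_mul]; group, e1, this (ρ x), e1, e2, this _ z, this _ z, e1, e2]
      rw [k3, mul_assoc (ρ x), hZ2 z hz] at e3
      rw [← ρe x, r.ker _ (hρ x)]
      exact kL.le ⟨hρ x, mem_cent1.2 (by rw [← mul_inv_eq_iff_eq_mul.1 (e1.trans (by simpa using e3.symm))])⟩
    · rw [← ρe x, ← ey, aA _ _ (hρ x)] at e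
      obtain ⟨z, hz, e1⟩ := re (hρ x) (conj_mem_of_norm (KL y.2) (hρ x)) e.symm
      obtain ⟨n, hn, c⟩ := fixc (N := Z) (pg_of fun z hz => t2_inv (hZ2 z hz)) (x := y.1) (g := ρ x) (by
        have : Fact (Nat.Prime 7) := ⟨by norm_num⟩
        rw [orderOf_coe, orderOf_eq_prime y3 fun h => y7_ne (by simpa [h] using (congrArg Prod.snd ey).symm)]; decide)
        (hK.le y.2) (by rw [e1, zc hz (hρ x), mul_inv_cancel_right]; exact hz)
      rw [← ρe x, r.ker _ (hρ x), ← mul_mem_cancel_left hn, mem_bot.1 (yL.le ⟨mul_mem (ZL hn) (hρ x), mem_cent1.2 c⟩)]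
      exact one_mem _
    · obtain ⟨k, rfl⟩ := hπ γ
      have n := KL k.2
      rw [← ρe x, ← ρe y, aA _ _ (hρ x), aA _ _ (hρ y), be (hρ x) (hρ y), be (conj_mem_of_norm n (hρ x)) (conj_mem_of_norm n (hρ y)),
        aB _ _ (cZ (hρ x) (hρ y))]
      congr 1; group
    · let S' : Subgroup G :=
        { carrier := {z | z ∈ Z ∧ t.π z ∈ S}
          one_mem' := ⟨one_mem _, t.map_one ▸ zero_mem _⟩
          mul_mem' := fun h k => ⟨mul_mem h.1 k.1, t.add _ h.1 _ k.1 ▸ add_mem h.2 k.2⟩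
          inv_mem' := fun h => ⟨inv_mem h.1, t.map_inv h.1 ▸ neg_mem h.2⟩ }
      have : Z ≤ S' := dZ.ge.trans (comm_le_iff.2 fun a ha c hc => ⟨cZ ha hc, be ha hc ▸ h _ _⟩)
      exact top_le_iff.1 fun z _ => τe z ▸ (this (hτ z)).2
    · have hx := hρ x
      have hy := hρ y
      have := be (inv_mem hx) hy
      rw [r.map_inv hx, neg_eq_of_add_eq_zero_left (add2 _)] at this
      rw [← ρe x, ← ρe y, ← r.add _ hx _ hy, pe (mul_mem hx hy), pe hx, pe hy, this, add_right_comm, ← t.add _ (sZ hx) _ (cZ (inv_mem hx) hy),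
        ← t.add _ (mul_mem (sZ hx) (cZ (inv_mem hx) hy)) _ (sZ hy)]
      congr 1; group
    · obtain ⟨k, rfl⟩ := hπ γ
      rw [← ρe x, aA _ _ (hρ x), pe (hρ x), pe (conj_mem_of_norm (KL k.2) (hρ x)), aB _ _ (sZ (hρ x))]
      congr 1; group
  obtain ⟨Φ, ζ, ψ, h1, h2, h3, h4⟩ := H.main
  let π' : G → Γ := fun a => if h : a ∈ K then π ⟨a, h⟩ else 1
  have πe : ∀ {a} (h : a ∈ K), π' a = π ⟨a, h⟩ := fun h => dif_pos h
  have πm : ∀ {a b}, a ∈ K → b ∈ K → π' (a * b) = π' a * π' b := fun ha hb => by rw [πe ha, πe hb, πe (mul_mem ha hb), ← map_mul]; rfl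
  refine ⟨⟨K, L, fun l => Φ.symm (r.π l), fun v => τ (ζ v), fun a => (π' a).1, fun a => (ψ (π' a).2).1, LK, hLc,
    fun ha hb => by rw [πm ha hb]; rfl, fun ha hb => by rw [πm ha hb, Prod.snd_mul, map_mul]; rfl, fun {a} ha => ?_,
    fun s m h => ?_, fun ha hb => by rw [r.add _ ha _ hb, map_add], fun x => ⟨_, hρ (Φ x), by rw [ρe, Φ.symm_apply_apply]⟩,
    fun v w => ti (hτ _) (mul_mem (hτ _) (hτ _)) (by rw [t.add _ (hτ _) _ (hτ _), τe, τe, τe, map_add]),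
    fun {v} e => ζ.map_eq_zero_iff.1 (by rw [← τe (ζ v), e, t.map_one]), fun v => ZL (hτ _), fun {l} hl => ?_,
    fun {k l} hk hl => ?_, fun {k} hk v => ti (conj_mem_of_norm (hK.le hk) (hτ _)) (hτ _) ?_,
    fun ha hb => ti (cZ ha hb) (hτ _) (by rw [τe, ← h3, Φ.apply_symm_apply, Φ.apply_symm_apply, be ha hb]),
    fun ha => ti (sZ ha) (hτ _) (by rw [τe, ← h4, Φ.apply_symm_apply, pe ha]), fun x h => hK.ge (mem_normalizer_fintype fun z hz => ?_)⟩⟩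
  · rw [← kπ ⟨a, ha⟩, πe ha, Prod.ext_iff]
    exact and_congr_right fun _ => ⟨fun h => by rw [h]; simp, fun h => ψ.map_eq_one_iff.1 (Subtype.ext h)⟩
  · obtain ⟨k, e⟩ := hπ (s, ψ.symm ⟨m, h⟩)
    exact ⟨k, k.2, by rw [πe k.2]; exact congrArg Prod.fst e, by rw [πe k.2, show π ⟨k, k.2⟩ = _ from e]; exact congrArg Subtype.val (ψ.apply_symm_apply _)⟩
  · rw [Φ.symm.map_eq_zero_iff, r.ker _ hl]
    exact ⟨fun h => ⟨ζ.symm (t.π l), ti (hτ _) h (by rw [τe, ζ.apply_symm_apply])⟩, fun ⟨v, e⟩ => e ▸ hτ _⟩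
  · rw [Φ.symm_apply_eq, ← h1, Φ.apply_symm_apply, πe hk]
    exact (aA ⟨k, hk⟩ l hl).symm
  · rw [← aB ⟨k, hk⟩ _ (hτ _), τe, τe, πe hk]
    exact h2 ..
  · obtain ⟨w, e⟩ := h (ζ.symm (t.π z))
    rw [ti (hτ _) hz (by rw [τe, ζ.apply_symm_apply])] at e
    exact e ▸ hτ _

end Cfsg.Lib.J4P
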