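import Cfsg.Agent.Lib.L72.Tools
import Cfsg.Prelude.Def_JankoFourType

/-! From the structure of `C(z) / Q` to the printed conditions. -/

set_option autoImplicit false

namespace Cfsg.Lib.J4P

open Subgroup Cfsg.Lib.BG Cfsg.Lib.Transfer Cfsg.Lib.L72
open scoped Cfsg.Lib.Transfer

theorem jtype {G Y : Type*} [Group G] [Finite G] [Group Y] {z : G} {Q : Subgroup G} (z2 : z * z = 1) (z1 : z ≠ 1) (o : OQ 𝐂[z] Q)
    (es : IsExtraspecial 2 Q) (c : Nat.card Q = 2 ^ 13) (r : 𝐂[z] →* Y) (hr : Function.Surjective r) (kr : ∀ a, r a = 1 ↔ a.1 ∈ Q)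
    (p : 𝐂[z]) (p3 : p ^ 3 = 1) (o3 : orderOf (r p) = 3) (fp : Q ⊓ 𝐂[p.1] ≤ zpowers z) (ψ : Y →* MulAut Spor.M22)
    (hψ : Function.Surjective ψ) (kψ : ∀ y, ψ y = 1 ↔ y ∈ zpowers (r p)) {t : Y} (ht : t * r p * t⁻¹ = (r p)⁻¹)
    (hp : r p ∈ ⁅𝐂[r p], 𝐂[r p]⁆) : IsOfJankoFourTypeWith z (zpowers p.1) := by
  have : Fact (Nat.Prime 3) := ⟨Nat.prime_three⟩
  have e : twoCoreOfCentralizer z = Q := by
    rw [twoCoreOfCentralizer, ← pcore_p_eq]
    exact le_antisymm (o.mx _ (pcore_pgroup 2 _) (pcore_nml _ _)) (pcore_max_p o.pg o.nml)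
  have op : orderOf p.1 = 3 := orderOf_eq_prime (congrArg Subtype.val p3) fun j => o3_ne o3 (by rw [show p = 1 from Subtype.ext j, map_one])
  have cP : Nat.card (zpowers p.1) = 3 := (Nat.card_zpowers _).trans op
  obtain ⟨N, hN⟩ : ∃ N, N = (ψ.comp r).ker.map (Subgroup.subtype _) := ⟨_, rfl⟩
  have sN : N.subgroupOf 𝐂[z] = (ψ.comp r).ker := hN ▸ comap_map_eq_self_of_injective (subtype_injective _) _
  have mN : ∀ a : 𝐂[z], a.1 ∈ N ↔ r a ∈ zpowers (r p) := fun a => by rw [← mem_subgroupOf, sN, ← kψ]; rfl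
  have lN : N ≤ 𝐂[z] := hN ▸ map_subtype_le _
  have nN : (N.subgroupOf 𝐂[z]).Normal := sN ▸ inferInstance
  have cN : Nat.card N = 3 * Nat.card Q := by
    rw [← Nat.card_congr (subgroupOfEquivOfLe lN).toEquiv, show N.subgroupOf 𝐂[z] = (zpowers (r p)).comap r from ext mN,
      Core.card_comap_of_surjective hr, Nat.card_zpowers, o3, show r.ker = Q.subgroupOf _ from ext kr,
      Nat.card_congr (subgroupOfEquivOfLe o.nml.le).toEquiv]
  have PN : zpowers p.1 ≤ N := zpowers_le.2 ((mN p).2 (mem_zpowers _))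
  have zQ : z ∈ Q := o.mx _ (t2_inv z2).pg (Nml.norm_self _ |>.of_le (zpowers_le.2 (self_mem_cent1 z)) fun _ h => cent_zp (mem_cent1.1 h))
    (mem_zpowers z)
  have HN := (normal_subgroupOf_iff_le_normalizer lN).1 nN
  rw [IsOfJankoFourTypeWith, e, cent_zpowers]
  refine ⟨orderOf_eq_prime ((pow_two z).trans z2) z1, es, c, o.sc, ⟨N, fun q h => (mN ⟨q, o.nml.le h⟩).2 (by
    rw [(kr ⟨q, o.nml.le h⟩).2 h]; exact one_mem _), lN, HN, cN, ⟨nN, ⟨(QuotientGroup.quotientMulEquivOfEq sN).trans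
      (QuotientGroup.quotientKerEquivOfSurjective _ (hψ.comp hr))⟩⟩, PN⟩, cP,
    le_antisymm fp (zpowers_le.2 ⟨zQ, mem_cent1_symm p.2⟩), fun j => ?_, zpowers_le.2 ?_⟩
  · obtain ⟨g, rfl⟩ := hr t
    have i := BG.card_mul_relIndex PN
    rw [cP, cN, Nat.mul_right_inj (by decide), c] at i
    obtain ⟨n, hn, l⟩ := exists_conj_le_of_not_dvd_relIndex' (p := 3) (by rw [i]; decide)
      ((pgroup_conj g.1).2 (IsPGroup.of_card (n := 1) cP)) (conj_le_of_norm PN (HN g.2))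
    rw [conj_conj] at l
    have k : r (⟨n, lN hn⟩ * g) ∈ 𝐂[r p] := mem_cent1.2 (by
      rw [← map_mul, ← map_mul]
      exact congrArg r (Subtype.ext (mem_cent1.1 (j.le ⟨mul_mem (lN hn) g.2, mem_normalizer_of_conj_le l⟩).2)))
    rw [map_mul, mul_mem_cancel_left (zpowers_le.2 (self_mem_cent1 _) ((mN ⟨n, lN hn⟩).1 hn)), mem_cent1, ← mul_inv_eq_iff_eq_mul, ht] at k
    exact o3_ne o3 (T2.one (t2_inv (mul_eq_one_iff_eq_inv.2 k.symm)) (by decide) (o3_pow o3))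
  have l : 𝐂[r p] ≤ ((𝐂[z] ⊓ 𝐂[p.1]).subgroupOf 𝐂[z]).map r := fun y hy => by
    obtain ⟨g, rfl⟩ := hr y
    obtain ⟨n, hn, k⟩ := fixc o.pg (odd3 op) (o.nml.norm p.2) (g := g.1) ((kr (p * g * p⁻¹ * g⁻¹)).1 (by
      simp only [map_mul, map_inv]; rw [← mem_cent1.1 hy]; group))
    exact ⟨⟨n, o.nml.le hn⟩ * g, mem_subgroupOf.2 ⟨mul_mem (o.nml.le hn) g.2, mem_cent1.2 k.eq⟩, by
      rw [map_mul, (kr ⟨n, o.nml.le hn⟩).2 hn, one_mul]⟩
  obtain ⟨u, hu, j⟩ := (map_commutator _ _ r).ge (der_mono l hp)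
  have m := der_mono (map_subgroupOf_eq_of_le inf_le_left).le ((map_commutator _ _ (Subgroup.subtype _)).le (mem_map_of_mem _ hu))
  have w := fp (x := (u⁻¹ * p : 𝐂[z])) <| mem_inf.2 ⟨(kr _).1 (by rw [map_mul, map_inv, j, inv_mul_cancel]),
    mul_mem (inv_mem (mem_inf.1 (der_le _ m)).2) (self_mem_cent1 p.1)⟩
  have : p.1 = u.1 ^ 4 := by
    have h : p.1 = p.1 ^ 4 := by rw [pow_succ, o3_pow op, one_mul]
    rcases mem2 z2 w with i | i <;> rw [h, inv_mul_eq_iff_eq_mul.1 i]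
    · rw [mul_one]
    · rw [(show Commute u.1 z from mem_cent1.1 u.2).mul_pow, show 4 = 2 * 2 from rfl, pow_mul z, pow_two z, z2, one_pow, mul_one]
  exact this ▸ pow_mem m 4

end Cfsg.Lib.J4P
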