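import Cfsg.Agent.Lib.J4P.Cd
import Cfsg.Agent.Lib.Extraspecial.Hall

/-! The extraspecial group `Q = O₂(C(z))` and the elementary abelian group `V` of order `2¹¹`. -/

set_option autoImplicit false
set_option synthInstance.maxSize 4096

namespace Cfsg.Lib.J4P

open Matrix hiding mul_inv_rev
open Subgroup Cfsg.Lib.BG Cfsg.Lib.Transfer Cfsg.Lib.L72
open scoped Cfsg.Lib.Transfer

variable {G : Type*} [Group G] {a b d h k l n s u x y : G} {v w : V3} {Q : Subgroup G}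

def tv (a b : F) : M3 := !![1, 0, a; 0, 1, b; 0, 0, 1]

theorem act_tv (a b : F) (x : Λ) : x + act 1 (tv a b) x = ![a • x 2, b • x 2, 0] := by
  ext i; fin_cases i <;> simp [act, tv, ← add_assoc, add2]

theorem irr (X : AddSubgroup Λ) (h : ∀ s (m : M3), m.det = 1 → m 2 0 = 0 → m 2 1 = 0 → ∀ x ∈ X, act s m x ∈ X) {x : Λ}
    (hx : x ∈ X) (x0 : x ≠ 0) {y : Λ} (e : y 2 = 0) : y ∈ X := by
  obtain ⟨n, n0, hn⟩ : ∃ n ≠ 0, ![n, 0, 0] ∈ X := by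
    by_cases h2 : x 2 = 0
    · by_cases h1 : x 1 = 0
      · exact ⟨x 0, fun h0 => x0 (by ext i; fin_cases i <;> assumption), by
          convert hx using 1; ext i; fin_cases i <;> simp [h1, h2]⟩
      · exact ⟨x 1, h1, by
          convert add_mem hx (h 1 !![1, 1, 0; 0, 1, 0; 0, 0, 1] (by decide) rfl rfl x hx) using 1
          ext i; fin_cases i <;> simp [act, ← add_assoc, add2]⟩
    · exact ⟨x 2, h2, by simpa [act_tv] using add_mem hx (h 1 (tv 1 0) (by decide) rfl rfl x hx)⟩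
  have k : ∀ m, ![m, 0, 0] ∈ X := fun m => by
    by_cases m0 : m = 0
    · convert zero_mem X; simp [m0]
    obtain ⟨s, rfl⟩ := ν_trans n n0
    obtain ⟨t, rfl⟩ := ν_trans m m0
    convert h (t * s⁻¹) 1 det_one rfl rfl _ hn using 1
    ext i; fin_cases i <;> simp [act_one, ν_mul]
  convert add_mem (k (y 0)) (h 1 !![0, 1, 0; 1, 0, 0; 0, 0, 1] (by decide) rfl rfl _ (k (y 1))) using 1
  ext i; fin_cases i <;> simp [act, e]

theorem β_nd2 {x : Λ} (h : x ≠ 0) : ∃ y, y 2 = 0 ∧ β y x ≠ 0 := by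
  obtain ⟨i, h⟩ := Function.ne_iff.1 h
  obtain ⟨m, e⟩ := f_nd _ h
  rw [f_comm] at e
  fin_cases i
  exacts [⟨![0, m, 0], by simp_all [β, funext_iff, Fin.forall_fin_succ]⟩,
    ⟨![m, 0, 0], by simp_all [β, funext_iff, Fin.forall_fin_succ]⟩, ⟨![m, 0, 0], by simp_all [β, funext_iff, Fin.forall_fin_succ]⟩]

theorem E1.fix {s : S5} (h : E1 s) {n : N} (e : N1 n) : ν s n = n := by
  rcases (N1_iff _).1 e with j | j | j | j <;> simp [j, h]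
theorem N1.map {s : S5} (h : s 0 = 0) {n : N} (e : N1 n) : N1 (ν s n) := by
  have := (st0 s).1 h
  rcases (N1_iff _).1 e with j | j | j | j <;> simp [N1, j, this]

/-- The position of `Q`. -/
structure QD (D : Cd G) (Q : Subgroup G) : Prop where
  oq : OQ 𝐂[D.z] Q
  K : Q ≤ D.K
  σ : ∀ {u}, u ∈ Q → D.σ u = 1
  g : ∀ {u}, u ∈ Q → ∃ a b, D.g u = tv a b
  L : ∀ {l}, l ∈ D.L → (l ∈ Q ↔ D.c l 2 = 0)
  surj : ∀ a b, ∃ u ∈ Q, D.g u = tv a b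
  cm : ∀ {a b}, a ∈ Q → b ∈ Q → a * b * a⁻¹ * b⁻¹ ∈ zpowers D.z

namespace Cd

variable (D : Cd G)

theorem mem_z : D.ζ v ∈ zpowers D.z ↔ v 0 = 0 ∧ v 1 = 0 :=
  ⟨fun h => (mem2 D.z_sq h).elim (fun e => by simp [D.ζ_inj e]) fun e => by simp [D.ζ_eq e], fun h => by
    rcases (by decide : ∀ v : V3, v 0 = 0 ∧ v 1 = 0 → v = 0 ∨ v = ![0, 0, 1]) v h with rfl | rfl
    exacts [D.ζ_zero ▸ one_mem _, mem_zpowers _]⟩

theorem LH (h : l ∈ D.L) : l ∈ 𝐂[D.z] := mem_cent1.2 (D.ζ_comm h _)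

theorem exists_QD [Finite G] (hT : Syl 2 D.T ⊤) (hH : ¬ 𝐂[D.z] ≤ D.K) (o : OQ 𝐂[D.z] Q) : QD D Q := by
  have QT : Q ≤ D.T := Syl.ge_of_norm_p (Hall.of_le hT D.TH le_top) o.nml.le o.pg (D.TH.trans o.nml.norm)
  have QK := QT.trans D.TK
  have lift : ∀ s (m : M3), m.det = 1 → m 2 0 = 0 → m 2 1 = 0 → ∃ k ∈ D.K, k ∈ 𝐂[D.z] ∧ D.σ k = s ∧ D.g k = m := fun s m d a b =>
    let ⟨k, hk, e, e'⟩ := D.surj s m d; ⟨k, hk, (D.mem_H hk).2 (e' ▸ ⟨a, b⟩), e, e'⟩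
  have Qσ : ∀ {u}, u ∈ Q → D.σ u = 1 := fun {u} hu => by
    have : ∀ n ≠ 0, ν (D.σ u) n = n := fun n n0 => by
      obtain ⟨s, rfl⟩ := ν_trans n n0
      obtain ⟨k, hk, kH, e, -⟩ := lift s⁻¹ 1 det_one rfl rfl
      have := (QT (conj_mem_of_norm (o.nml.norm kH) hu)).2.1
      rw [D.σ_conj hk (QK hu), e, inv_inv, ν_mul, ν_mul] at this
      simpa using congrArg (ν s) this
    exact ν_faith _ (this _ (by decide)) (this _ (by decide)) (this _ (by decide))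
  have Qg : ∀ {u}, u ∈ Q → ∃ a b, D.g u = tv a b := fun {u} hu => by
    obtain ⟨k, hk, kH, -, e⟩ := lift 1 !![0, 1, 0; 1, 0, 0; 0, 0, 1] (by decide) rfl rfl
    have m := QT (conj_mem_of_norm (o.nml.norm kH) hu)
    have e1 : D.g (k * u * k⁻¹) * D.g k = D.g k * D.g u := by rw [← D.g_mul m.1 hk, ← D.g_mul hk (QK hu)]; congr 1; group
    have e2 := congrFun (congrFun e1 1) 1
    simp [mul_apply, Fin.sum_univ_three, e, m.2.2] at e2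
    have t := (QT hu).2.2
    have := t.diag (D.det_g (QK hu))
    exact ⟨D.g u 0 2, D.g u 1 2, by ext i j; fin_cases i <;> fin_cases j <;> simp [tv, t, this, ← e2]⟩
  have zc : ∀ v, ∀ q ∈ Q, D.ζ v * q * (D.ζ v)⁻¹ * q⁻¹ ∈ zpowers D.z := fun v q hq => by
    obtain ⟨a, b, e⟩ := Qg (inv_mem hq)
    rw [D.ζ_inv, mul_assoc, mul_assoc, ← mul_assoc q, D.ζ_conj' (QK hq), ← D.ζ_add, D.mem_z, e]
    simp [tv, vecMul, dotProduct, Fin.sum_univ_three, add2, vecHead, vecTail]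
  have nz : ∀ g ∈ 𝐂[D.z], ∀ z ∈ zpowers D.z, g * z * g⁻¹ ∈ zpowers D.z := fun g hg _ => conj_mem_of_norm (cent_zp (mem_cent1.1 hg))
  let E : Subgroup G :=
    { carrier := {g | g ∈ Q ∧ ∀ q ∈ Q, g * q * g⁻¹ * q⁻¹ ∈ zpowers D.z}
      one_mem' := ⟨one_mem _, fun q _ => by simp⟩
      mul_mem' := fun {a b} ha hb => ⟨mul_mem ha.1 hb.1, fun q hq => by
        convert mul_mem (nz a (o.nml.le ha.1) _ (hb.2 q hq)) (ha.2 q hq) using 1; group⟩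
      inv_mem' := fun {a} ha => ⟨inv_mem ha.1, fun q hq => by
        convert nz _ (inv_mem (o.nml.le ha.1)) _ (inv_mem (ha.2 q hq)) using 1; group⟩ }
  have En : ∀ {m a}, m ∈ 𝐂[D.z] → a ∈ E → m * a * m⁻¹ ∈ E := fun {m a} hm ha => ⟨conj_mem_of_norm (o.nml.norm hm) ha.1, fun q hq => by
    convert nz m hm _ (ha.2 _ (conj_mem_of_norm' (o.nml.norm hm) hq)) using 1; group⟩
  have ZE : ∀ v, D.ζ v ∈ E := fun v => ⟨o.stab D.z_sq (D.LH (D.ζ_mem v)) (zc v), zc v⟩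
  let X : AddSubgroup Λ :=
    { carrier := {x | ∃ l ∈ D.L, l ∈ E ∧ D.c l = x}
      zero_mem' := ⟨1, one_mem _, one_mem _, D.c_one⟩
      add_mem' := by rintro _ _ ⟨a, h1, h2, rfl⟩ ⟨b, h3, h4, rfl⟩; exact ⟨_, mul_mem h1 h3, mul_mem h2 h4, D.c_mul h1 h3⟩
      neg_mem' := by rintro _ ⟨a, h1, h2, rfl⟩; exact ⟨a, h1, h2, (neg_eq_of_add_eq_zero_left (add2 _)).symm⟩ }
  obtain ⟨x, hx, x0⟩ : ∃ x ∈ X, x ≠ 0 := by
    obtain ⟨d, hd, dZ⟩ : ∃ d ∈ E, d ∉ D.Z := SetLike.not_le_iff_exists.1 fun k => hH fun m hm => D.hK' (mem_normalizer_fintype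
      fun z hz => let ⟨v, e⟩ := D.mem_Z.1 hz; k (En hm (e ▸ ZE v)))
    by_cases dL : d ∈ D.L
    · exact ⟨_, ⟨d, dL, hd, rfl⟩, mt (D.c_zero dL).1 dZ⟩
    obtain ⟨a, b, e⟩ := Qg hd.1
    obtain ⟨l, hl, c⟩ := D.c_surj ![0, 0, e1]
    have m := D.nml (QK hd.1) (inv_mem hl)
    refine ⟨_, ⟨l * (d * l⁻¹ * d⁻¹), mul_mem hl m, by simpa [mul_assoc] using mul_mem (En (D.LH hl) hd) (inv_mem hd), rfl⟩,
      fun j => dL ((D.ker (QK hd.1)).2 ⟨Qσ hd.1, ?_⟩)⟩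
    rw [D.c_mul hl m, D.c_conj (QK hd.1) (inv_mem hl), D.c_inv hl, Qσ hd.1, e, act_tv, c] at j
    rw [e]; revert j; generalize a = a, b = b; revert a b; decide +kernel
  have LE : ∀ {l}, l ∈ D.L → D.c l 2 = 0 → l ∈ E := fun {l} hl e => by
    obtain ⟨a, h1, h2, h3⟩ := irr X (fun s m d j1 j2 _ ⟨a, h1, h2, h3⟩ => by
      obtain ⟨k, hk, kH, rfl, rfl⟩ := lift s m d j1 j2
      exact ⟨_, D.nml hk h1, En kH h2, h3 ▸ D.c_conj hk h1⟩) hx x0 e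
    obtain ⟨v, rfl⟩ := D.c_eq h1 hl h3
    exact mul_mem h2 (ZE v)
  have QL : ∀ {l}, l ∈ D.L → l ∈ Q → D.c l 2 = 0 := fun {l} hl hq => by
    by_contra j
    obtain ⟨m, e⟩ := f_nd _ j
    obtain ⟨a, ha, c⟩ := D.c_surj ![m, 0, 0]
    have := (LE ha (by rw [c]; rfl)).2 l hq
    rw [D.comm ha hl, D.mem_z, c] at this
    simp [β, f_comm m, e] at this
  obtain ⟨d, hd, dL⟩ : ∃ d ∈ E, d ∉ D.L := SetLike.not_le_iff_exists.1 fun k => hH fun m hm => D.hK m fun v => by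
    have j := k (En hm (ZE v))
    refine ((D.c_zero j).1 (by_contra fun i => ?_)).imp fun _ => Eq.symm
    obtain ⟨y, y2, b⟩ := β_nd2 i
    obtain ⟨l, hl, rfl⟩ := D.c_surj y
    refine b ((D.comm_iff hl j).1 ?_)
    calc _ = m * (m⁻¹ * l * m⁻¹⁻¹ * D.ζ v) * m⁻¹ := by group
      _ = _ := by rw [D.ζ_comm (k (En (inv_mem hm) (LE hl y2)))]; group
  have Es : ∀ a b, ∃ u ∈ E, D.g u = tv a b := fun a' b' => by
    obtain ⟨a, b, e⟩ := Qg hd.1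
    have : ∀ a b a' b' : F, tv a b = 1 ∨ tv a' b' = 1 ∨ ∃ m ∈ invs, m * m = 1 ∧ m 2 0 = 0 ∧ m 2 1 = 0 ∧ m * tv a b * m = tv a' b' := by
      decide +kernel
    rcases this a b a' b' with j | j | ⟨m, -, m2, j1, j2, j⟩
    · exact (dL ((D.ker (QK hd.1)).2 ⟨Qσ hd.1, e.trans j⟩)).elim
    · exact ⟨1, one_mem _, D.g_one.trans j.symm⟩
    · obtain ⟨k, hk, kH, -, rfl⟩ := lift 1 m (det1 m2) j1 j2
      exact ⟨_, En kH hd, by rw [D.g_conj hk (QK hd.1), e, ← j, ← one_mul (D.g k⁻¹), ← m2, mul_assoc _ _ (D.g k⁻¹), D.g_inv hk, mul_one]⟩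
  refine ⟨o, QK, Qσ, Qg, fun hl => ⟨QL hl, fun e => (LE hl e).1⟩, fun a b => (Es a b).imp fun _ h => ⟨h.1.1, h.2⟩,
    fun {u _} hu => (show u ∈ E from ?_).2 _⟩
  obtain ⟨a, b, e⟩ := Qg hu
  obtain ⟨d, hd, e'⟩ := Es a b
  have := D.mem_L (QK hd.1) (QK hu) (by rw [Qσ hd.1, Qσ hu]) (e'.trans e.symm)
  simpa using mul_mem hd (LE this (QL this (mul_mem (inv_mem hd.1) hu)))

theorem exists_y : ∃ y ∈ D.K, D.σ y = 1 ∧ D.g y = Y7 ∧ y ^ 7 = 1 ∧ ∀ l ∈ D.L, l * y = y * l → l = 1 := by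
  obtain ⟨k, hk, e1, e2⟩ := D.surj 1 Y7 (by decide)
  have k7 : k ^ 7 ∈ D.L := (D.ker (pow_mem hk 7)).2 ⟨by rw [D.σ_pow hk, e1, one_pow], by rw [D.g_pow hk, e2]; decide +kernel⟩
  have s : D.σ (k ^ 8) = 1 := by rw [D.σ_pow hk, e1, one_pow]
  have g : D.g (k ^ 8) = Y7 := by rw [D.g_pow hk, e2]; decide +kernel
  refine ⟨_, pow_mem hk 8, s, g, by rw [← pow_mul, show 8 * 7 = 7 * 4 * 2 from rfl, pow_mul, pow_mul, D.pow4 k7, one_pow],
    fun l hl e => ?_⟩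
  have c := D.c_conj (pow_mem hk 8) hl
  rw [← e, mul_inv_cancel_right, s, g] at c
  have c0 := congrFun c 0
  have c1 := congrFun c 1
  have c2 := congrFun c 2
  simp [act, Y7] at c0 c1 c2
  rw [c0, add2] at c1
  obtain ⟨v, rfl⟩ := (D.c_zero hl).1 (by ext i; fin_cases i <;> simp [c0, c1, c2])
  rw [(by decide : ∀ v : V3, v ᵥ* Y7 = v → v = 0) v (g ▸ (D.fix_iff (pow_mem hk 8)).1 e.symm), D.ζ_zero]

/-- The elementary abelian subgroup of order `2¹¹`. -/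
def V : Subgroup G where
  carrier := {s | s ∈ D.K ∧ E1 (D.σ s) ∧ D.g s = 1 ∧ ∀ l ∈ D.L, (∀ i, N1 (D.c l i)) → s * l = l * s}
  one_mem' := ⟨one_mem _, by simp [E1, D.σ_one], D.g_one, fun _ _ _ => by simp⟩
  mul_mem' h k := ⟨mul_mem h.1 k.1, by simp [E1, D.σ_mul h.1 k.1, ν_mul, h.2.1, k.2.1], by rw [D.g_mul h.1 k.1, h.2.2.1, k.2.2.1, mul_one],
    fun l hl e => by rw [mul_assoc, k.2.2.2 l hl e, ← mul_assoc, h.2.2.2 l hl e, mul_assoc]⟩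
  inv_mem' {s} h := ⟨inv_mem h.1, by
    rw [D.σ_inv h.1]; exact ⟨by nth_rw 1 [← h.2.1.1]; exact ν_inv .., by nth_rw 1 [← h.2.1.2]; exact ν_inv ..⟩,
    by simpa [h.2.2.1] using D.g_inv h.1, fun l hl e => (show Commute s l from h.2.2.2 l hl e).inv_left⟩

theorem V_L (hl : l ∈ D.L) : l ∈ D.V ↔ ∀ i, N1 (D.c l i) := by
  refine ⟨fun h => ?_, fun h => ⟨D.LK hl, by simp [E1, D.σ_L hl], D.g_L hl, fun a ha e => (D.comm_iff hl ha).2 ?_⟩⟩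
  · have : ∀ n, N1 n → ∀ i, f n (D.c l i) = 0 := fun n hn i => by
      obtain ⟨a, ha, c⟩ := D.c_surj ![n, 0, 0]
      obtain ⟨b, hb, c'⟩ := D.c_surj ![0, n, 0]
      have h1 := (D.comm_iff ha hl).1 (h.2.2.2 a ha fun i => by fin_cases i <;> simp [N1, c, hn]).symm
      have h2 := (D.comm_iff hb hl).1 (h.2.2.2 b hb fun i => by fin_cases i <;> simp [N1, c', hn]).symm
      simp [c, c', β] at h1 h2
      fin_cases i <;> simp [h1, h2]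
    exact fun i => ⟨this _ (by decide) i, this _ (by decide) i⟩
  · ext i; fin_cases i <;> simp [β, N1_f _ _ (h _) (e _)]

theorem V_surj [Finite G] {e : S5} (he : E1 e) : ∃ s ∈ D.V, D.σ s = e ∧ s * s = 1 := by
  obtain ⟨y, hy, y1, y2, y7, yL⟩ := D.exists_y
  obtain ⟨k, hk, k1, k2⟩ := D.surj e 1 det_one
  obtain ⟨n, hn, c⟩ := fixc D.pg_L (x := y) (g := k) (Odd.of_dvd_nat (by decide) (orderOf_dvd_of_pow_eq_one y7))
    (mem_normalizer_fintype fun _ => D.nml hy) ((D.ker (mul_mem (mul_mem (mul_mem hy hk) (inv_mem hy)) (inv_mem hk))).2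
      ⟨by rw [D.σ_mul (mul_mem (mul_mem hy hk) (inv_mem hy)) (inv_mem hk), D.σ_conj hy hk, D.σ_inv hk, y1]; group,
        by rw [D.g_mul (mul_mem (mul_mem hy hk) (inv_mem hy)) (inv_mem hk), D.g_conj hy hk, k2, mul_one, D.g_inv hy, one_mul,
          ← D.g_inv hk, k2, one_mul]⟩)
  have sK := mul_mem (D.LK hn) hk
  have s1 := D.σ_mul (D.LK hn) hk
  have s2 := D.g_mul (D.LK hn) hk
  rw [D.σ_L hn, k1, one_mul] at s1
  rw [D.g_L hn, k2, one_mul] at s2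
  generalize n * k = s at *
  refine ⟨s, ⟨sK, s1 ▸ he, s2, fun l hl e => ?_⟩, s1, yL _ ((D.ker (mul_mem sK sK)).2 ⟨?_, by rw [D.g_mul sK sK, s2, mul_one]⟩)
    (c.mul_left c)⟩
  · obtain ⟨v, j⟩ := D.c_eq hl (D.nml sK hl) (by
      ext i; rw [D.c_conj sK hl, s2, act_one, s1, he.fix (e i)])
    have yi : ∀ v, y * D.ζ v * y⁻¹ = D.ζ (v ᵥ* !![1, 1, 0; 0, 0, 1; 1, 0, 0]) := fun v => by
      rw [← D.ζ_conj hy (v ᵥ* _), vecMul_vecMul, y2, show _ * Y7 = 1 by decide, vecMul_one]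
    have st : ∀ {a v}, s * a * s⁻¹ = a * D.ζ v → s * (y * a * y⁻¹) * s⁻¹ = y * a * y⁻¹ * D.ζ (v ᵥ* !![1, 1, 0; 0, 0, 1; 1, 0, 0]) :=
      fun {a v} j => by
        rw [← yi, show s * (y * a * y⁻¹) * s⁻¹ = s * y * a * (s * y)⁻¹ by group, c.eq,
          show y * s * a * (y * s)⁻¹ = y * (s * a * s⁻¹) * y⁻¹ by group, j]; group
    have l1 := D.nml hy hl
    have l2 := D.nml hy l1
    have l3 := D.nml hy l2
    obtain ⟨w, i⟩ := (D.c_zero (mul_mem (mul_mem hl l1) l3)).1 (by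
      rw [D.c_mul (mul_mem hl l1) l3, D.c_mul hl l1, D.c_conj hy l2, D.c_conj hy l1, D.c_conj hy hl, y1, y2]
      ext i; fin_cases i <;> simp [act, Y7] <;> abel_nf <;> simp [two_smul, add2])
    have i1 := mul_inv_eq_iff_eq_mul.2 ((D.fix_iff sK).2 (show w ᵥ* D.g s = w by rw [s2, vecMul_one]))
    rw [i, show ∀ a b c, s * (a * b * c) * s⁻¹ = s * a * s⁻¹ * (s * b * s⁻¹) * (s * c * s⁻¹) from fun a b c => by group, j, st j,
      st (st (st j)), mul_assoc l, ← mul_assoc (D.ζ v), ← D.ζ_comm l1, mul_assoc _ (D.ζ v), ← D.ζ_add, ← mul_assoc l, mul_assoc _ (D.ζ _),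
      ← mul_assoc (D.ζ _), ← D.ζ_comm l3, mul_assoc _ (D.ζ _), ← D.ζ_add, ← mul_assoc, mul_eq_left] at i1
    rw [(by decide : ∀ v : V3, v + v ᵥ* !![1, 1, 0; 0, 0, 1; 1, 0, 0] + v ᵥ* !![1, 1, 0; 0, 0, 1; 1, 0, 0] ᵥ* !![1, 1, 0; 0, 0, 1; 1, 0, 0]
      ᵥ* !![1, 1, 0; 0, 0, 1; 1, 0, 0] = 0 → v = 0) v (D.ζ_inj i1), D.ζ_zero, mul_one] at j
    exact mul_inv_eq_iff_eq_mul.1 j
  · rw [D.σ_mul sK sK, s1]
    rcases (E1_iff e).1 he with rfl | rfl | rfl | rfl <;> decide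

theorem V_sq [Finite G] (h : a ∈ D.V) : a * a = 1 := by
  obtain ⟨s, hs, e, s2⟩ := D.V_surj h.2.1
  have l := D.mem_L hs.1 h.1 e (hs.2.2.1.trans h.2.2.1.symm)
  have n := (D.V_L l).1 (mul_mem (inv_mem hs) h)
  have := D.sq l
  rw [show q (D.c (s⁻¹ * a)) = 0 by ext i; fin_cases i <;> simp [q, N1_f _ _ (n _) (n _)], D.ζ_zero] at this
  calc _ = s * (s⁻¹ * a * s) * (s⁻¹ * a) := by group
    _ = _ := by rw [← hs.2.2.2 _ l n, ← mul_assoc s s, s2, one_mul, this]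

theorem V_norm (hk : k ∈ D.K) (e : D.σ k 0 = 0) (h : a ∈ D.V) : k * a * k⁻¹ ∈ D.V := by
  have e' : (D.σ k)⁻¹ 0 = 0 := by rw [Equiv.Perm.inv_eq_iff_eq, e]
  have f : ∀ m, N1 m → ν (D.σ (k * a * k⁻¹)) m = m := fun m j => by
    rw [D.σ_conj hk h.1, ν_mul, ν_mul, E1.fix h.2.1 (j.map e'), ν_inv']
  refine ⟨mul_mem (mul_mem hk h.1) (inv_mem hk), ⟨f _ (by decide), f _ (by decide)⟩,
    by rw [D.g_conj hk h.1, h.2.2.1, mul_one, D.g_inv hk], fun l hl j => ?_⟩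
  have := h.2.2.2 _ (D.nml (inv_mem hk) hl) fun i => by
    have := fun i => (j i).map e'
    simp [N1, D.c_conj (inv_mem hk) hl, act, D.σ_inv hk, this, -inv_inv]
  calc _ = k * (a * (k⁻¹ * l * k⁻¹⁻¹)) * k⁻¹ := by group
    _ = _ := by rw [this]; group

end Cd

namespace QD

variable {D : Cd G} (P : QD D Q)
include P

theorem ζ (v : V3) : D.ζ v ∈ Q := (P.L (D.ζ_mem v)).2 (by rw [D.c_ζ]; rfl)

theorem cen (hx : x ∈ Q) (e : x ∈ 𝐂(Q)) : x ∈ zpowers D.z := by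
  have xL := (D.ker (P.K hx)).2 ⟨P.σ hx, D.g_eq_one (P.K hx) fun v => (e _ (P.ζ v)).symm⟩
  obtain ⟨v, rfl⟩ := (D.c_zero xL).1 (by_contra fun i => by
    obtain ⟨y, y2, b⟩ := β_nd2 i
    obtain ⟨l, hl, rfl⟩ := D.c_surj y
    exact b ((D.comm_iff hl xL).1 (e _ ((P.L hl).2 y2))))
  obtain ⟨a, ha, a1⟩ := P.surj 1 0
  obtain ⟨b, hb, b1⟩ := P.surj 0 1
  exact D.mem_z.2 ((by decide : ∀ v : V3, v ᵥ* tv 1 0 = v → v ᵥ* tv 0 1 = v → v 0 = 0 ∧ v 1 = 0) v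
    (a1 ▸ (D.fix_iff (P.K ha)).1 (e a ha)) (b1 ▸ (D.fix_iff (P.K hb)).1 (e b hb)))

theorem sq (hx : x ∈ Q) : x ^ 2 ∈ zpowers D.z := P.cen (pow_mem hx 2) fun y hy => by
  have c := mem_cent1.1 (P.oq.nml.le hx)
  rcases mem2 D.z_sq (P.cm hx hy) with e | e
  · exact (show Commute y x from (mul_inv_eq_iff_eq_mul.1 (mul_inv_eq_one.1 e)).symm).pow_right 2
  · have : x * y = D.z * y * x := by rw [← e]; group
    calc _ = D.z * D.z * y * x * x := by rw [D.z_sq, pow_two]; group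
      _ = _ := by rw [pow_two, mul_assoc x, this, ← mul_assoc, ← mul_assoc, c, mul_assoc D.z x y, this]; group

theorem lg : ES.Lg Q D.z :=
  ⟨⟨P.ζ _, orderOf_eq_prime ((pow_two _).trans D.z_sq) D.z_ne, P.oq.nml.le, fun _ => P.sq, fun _ h e _ => P.cen h e⟩,
    fun _ h => P.oq.sc ⟨cent_le_cent1 (P.ζ _) h, h⟩, P.oq.nml.norm⟩

variable [Finite G]

theorem es : IsExtraspecial 2 Q := ES.isExtraspecial_of_card P.oq.pg P.lg.card_zpowers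
  (le_antisymm (fun _ h => P.cen h.1 h.2) (le_inf P.lg.zpowers_le P.lg.zpowers_le_centralizer)) (comm_le_iff.2 fun _ a _ b => P.cm a b)
  (fun _ => P.sq) fun e => absurd (D.mem_z.1 (e.le (P.ζ 1))).1 one_ne_zero

theorem card : Nat.card Q = 2 ^ 13 := by
  have h1 := card_fib (U := Q) (fun u => (D.g u 0 2, D.g u 1 2)) Finset.univ (Q ⊓ D.L) (fun _ _ => Finset.mem_univ _) fun a ha b hb e => by
    obtain ⟨a1, a2, j⟩ := P.g ha
    obtain ⟨b1, b2, i⟩ := P.g hb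
    simp [i, j, tv] at e
    exact mem_inf.2 ⟨mul_mem (inv_mem ha) hb, D.mem_L (P.K ha) (P.K hb) (by rw [P.σ ha, P.σ hb]) (by rw [i, j, e.1, e.2])⟩
  have h2 := (D.card_c (U := Q ⊓ D.L) inf_le_right (Finset.univ.image fun x : N × N => ![x.1, x.2, 0]) fun l hl =>
    Finset.mem_image.2 ⟨(D.c l 0, D.c l 1), Finset.mem_univ _, by ext i; fin_cases i <;> simp [(P.L hl.2).1 hl.1]⟩).trans
    (Nat.mul_le_mul_right _ Finset.card_image_le)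
  choose r hr e using P.surj
  choose t ht c using D.c_surj
  have tQ : ∀ x : N × N, t ![x.1, x.2, 0] ∈ Q := fun x => (P.L (ht _)).2 (by rw [c]; rfl)
  have h3 := Nat.card_le_card_of_injective (fun x : (F × F) × (N × N) × V3 => (⟨r x.1.1 x.1.2 * (t ![x.2.1.1, x.2.1.2, 0] * D.ζ x.2.2),
    mul_mem (hr ..) (mul_mem (tQ _) (P.ζ _))⟩ : Q)) fun ⟨⟨a, b⟩, ⟨n, m⟩, v⟩ ⟨⟨a', b'⟩, ⟨n', m'⟩, v'⟩ j => by
      have l := fun x v => mul_mem (ht x) (D.ζ_mem v)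
      have j := congrArg Subtype.val j
      have j1 := congrArg D.g j
      simp only [D.g_mul (P.K (hr ..)) (D.LK (l ..)), D.g_L (l ..), mul_one, e] at j1
      obtain ⟨rfl, rfl⟩ := (by decide : ∀ a b a' b', tv a b = tv a' b' → a = a' ∧ b = b') _ _ _ _ j1
      have j2 := congrArg D.c (mul_left_cancel j)
      simp only [D.c_mul (ht _) (D.ζ_mem _), c, D.c_ζ, add_zero] at j2
      obtain rfl : n = n' := congrFun j2 0
      obtain rfl : m = m' := congrFun j2 1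
      rw [show v = v' from D.ζ_eq (mul_left_cancel (mul_left_cancel j))]
  simp [card_N] at h1 h2 h3
  omega

end QD

end Cfsg.Lib.J4P
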