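import Cfsg.Agent.Lib.J4P.Mod
import Cfsg.Agent.Lib.Linear.Simple

/-! Recognition of the module `N ⊗ 𝔽₂³` of `S₅ × SL₃(2)`. -/

set_option autoImplicit false
set_option synthInstance.maxSize 4096
set_option linter.unusedSectionVars false

namespace Cfsg.Lib.J4P

open Equiv Matrix

abbrev Λ := Fin 3 → N
abbrev SL3 := SpecialLinearGroup (Fin 3) F
abbrev Γ := S5 × SL3

def act (s : S5) (m : M3) (x : Λ) : Λ := fun i => m i 0 • ν s (x 0) + m i 1 • ν s (x 1) + m i 2 • ν s (x 2)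
def β (x y : Λ) : V3 := ![f (x 1) (y 2) + f (x 2) (y 1), f (x 2) (y 0) + f (x 0) (y 2), f (x 0) (y 1) + f (x 1) (y 0)]
def q (x : Λ) : V3 := ![f (x 1) (x 2), f (x 2) (x 0), f (x 0) (x 1)]
def cr (a b : V3) : V3 := ![a 1 * b 2 + a 2 * b 1, a 2 * b 0 + a 0 * b 2, a 0 * b 1 + a 1 * b 0]

theorem simple_SL : IsSimpleGroup SL3 := by
  have hZ : Subgroup.center SL3 = ⊥ := Subgroup.card_eq_one.1 (by rw [Linear.card_center_SL, ZMod.card]; rfl)
  have := Linear.isSimpleGroup_PSL (ι := Fin 3) (F := ZMod 2) (Or.inl (by simp))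
  exact ((QuotientGroup.quotientMulEquivOfEq hZ).trans QuotientGroup.quotientBot).symm.isSimpleGroup

def Y7 : M3 := !![0, 0, 1; 1, 0, 1; 0, 1, 0]
def y7 : SL3 := ⟨Y7, by decide +kernel⟩
theorem y7_pow : y7 ^ 7 = 1 := Subtype.ext ((Matrix.SpecialLinearGroup.coe_pow y7 7).trans (by decide +kernel))
theorem y7_ne : y7 ≠ 1 := fun h => absurd (congrArg Subtype.val h) (by decide +kernel)

theorem det1 {a b : M3} (h : a * b = 1) : a.det = 1 := by
  have := congrArg det h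
  rw [det_mul, det_one] at this
  rcases z2 a.det with e | e
  · simp [e] at this
  · exact e

theorem cr_surj : ∀ u : V3, ∃ a b, cr a b = u := by decide +kernel
theorem cr_mul (m : M3) (a b : V3) : cr (m *ᵥ a) (m *ᵥ b) ᵥ* m = m.det • cr a b := by
  ext i
  fin_cases i <;> simp [cr, det_fin_three, vecMul, mulVec, dotProduct, Fin.sum_univ_three] <;> rw [← sub_eq_zero] <;>
    ring_nf <;> simp [show (2 : F) = 0 from rfl, show (6 : F) = 0 from rfl]

theorem orb7 {X : Type*} [MulAction Γ X] {y : Γ} (h : y ^ 7 = 1) {x : X} (e : y • x ≠ x) :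
    Function.Injective fun i : Fin 7 => y ^ (i : ℕ) • x := fun i j k => by
  have : Fact (Nat.Prime 7) := ⟨by norm_num⟩
  have p : Function.minimalPeriod (y • ·) x = 7 := Function.minimalPeriod_eq_prime (by
    rw [Function.IsPeriodicPt, Function.IsFixedPt, smul_iterate, h]; exact one_smul _ _) e
  exact Fin.ext (Function.iterate_injOn_Iio_minimalPeriod (f := (y • ·)) (x := x) (by simp [p]) (by simp [p])
    (by simpa only [smul_iterate] using k))

/-- The hypotheses on the modules. -/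
structure TH (A B : Type*) [AddCommGroup A] [Module F A] [AddCommGroup B] [Module F B] [DistribMulAction Γ A]
    [DistribMulAction Γ B] (b : A →+ A →+ B) (p : A → B) : Prop where
  cA : Nat.card A = 2 ^ 12
  cB : Nat.card B = 8
  f3 : ∀ s : S5, s * s * s = 1 → s ≠ 1 → ∀ x : A, ((s, 1) : Γ) • x = x → x = 0
  f7 : ∀ x : A, ((1, y7) : Γ) • x = x → x = 0
  f7' : ∀ x : B, ((1, y7) : Γ) • x = x → x = 0
  sym : ∀ x y, b x y = b y x
  eqv : ∀ (γ : Γ) x y, b (γ • x) (γ • y) = γ • b x y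
  gen : ∀ S : AddSubgroup B, (∀ x y, b x y ∈ S) → S = ⊤
  padd : ∀ x y, p (x + y) = p x + p y + b x y
  peqv : ∀ (γ : Γ) x, p (γ • x) = γ • p x

variable {A B : Type*} [AddCommGroup A] [Module F A] [AddCommGroup B] [Module F B] [DistribMulAction Γ A]
    [DistribMulAction Γ B] {b : A →+ A →+ B} {p : A → B} {w w' : A} {n n' : N}

theorem smul_f (γ : Γ) (a : F) (x : A) : γ • a • x = a • γ • x := by rcases z2 a with rfl | rfl <;> simp
theorem s_mul (s t : S5) (x : A) : ((s * t, 1) : Γ) • x = ((s, 1) : Γ) • ((t, 1) : Γ) • x := by rw [← mul_smul]; simp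
theorem s_comm (s : S5) (m : SL3) (x : A) : ((s, 1) : Γ) • ((1, m) : Γ) • x = ((1, m) : Γ) • ((s, 1) : Γ) • x := by
  rw [← mul_smul, ← mul_smul]; simp
theorem s_split (s : S5) (m : SL3) (x : A) : ((s, m) : Γ) • x = ((s, 1) : Γ) • ((1, m) : Γ) • x := by rw [← mul_smul]; simp
theorem s_one (x : A) : ((1, 1) : Γ) • x = x := one_smul _ x

/-- The fixed points of the stabiliser of `e₁`. -/
def W (A : Type*) [AddCommGroup A] [Module F A] [DistribMulAction Γ A] : Submodule F A where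
  carrier := {w | ∀ d, ν d e1 = e1 → ((d, 1) : Γ) • w = w}
  zero_mem' _ _ := smul_zero _
  add_mem' h k d e := by rw [smul_add, h d e, k d e]
  smul_mem' a _ h d e := by rw [smul_f, h d e]

theorem W_m (m : SL3) (h : w ∈ W A) : ((1, m) : Γ) • w ∈ W A := fun d e => by rw [s_comm, h d e]

/-- The pure tensor. -/
noncomputable def U (n : N) (w : A) : A := if h : n = 0 then 0 else (((ν_trans n h).choose, 1) : Γ) • w

@[simp] theorem U_zero (w : A) : U 0 w = 0 := dif_pos rfl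
@[simp] theorem U_addw (n : N) (w w' : A) : U n (w + w') = U n w + U n w' := by unfold U; split_ifs <;> simp
@[simp] theorem U_zw (n : N) : U n (0 : A) = 0 := by unfold U; split_ifs <;> simp
@[simp] theorem U_sw (n : N) (a : F) (w : A) : U n (a • w) = a • U n w := by rcases z2 a with rfl | rfl <;> simp
theorem U_sn (a : F) (n : N) (w : A) : U (a • n) w = a • U n w := by rcases z2 a with rfl | rfl <;> simp
theorem U_m (m : SL3) (n : N) (w : A) : ((1, m) : Γ) • U n w = U n (((1, m) : Γ) • w) := by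
  unfold U; split_ifs
  exacts [smul_zero _, (s_comm ..).symm]

theorem U_eq (h : w ∈ W A) (s : S5) : U (ν s e1) w = ((s, 1) : Γ) • w := by
  have e : ν s e1 ≠ 0 := by rw [Ne, ν_eq_zero]; decide
  have k := (ν_trans _ e).choose_spec
  rw [U, dif_neg e]
  generalize (ν_trans _ e).choose = t at k
  rw [show t = s * (s⁻¹ * t) by group, s_mul, h _ (by rw [ν_mul, k, ν_inv])]

theorem U_e1 (h : w ∈ W A) : U e1 w = w := by simpa [s_one] using U_eq h 1

theorem U_s (h : w ∈ W A) (s : S5) (n : N) : ((s, 1) : Γ) • U n w = U (ν s n) w := by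
  by_cases e : n = 0
  · simp [e]
  obtain ⟨t, rfl⟩ := ν_trans n e
  rw [U_eq h, ← ν_mul, U_eq h, s_mul]

namespace TH

variable (H : TH A B b p)
include H

theorem finA : Finite A := Nat.finite_of_card_ne_zero (by rw [H.cA]; norm_num)
theorem finB : Finite B := Nat.finite_of_card_ne_zero (by rw [H.cB]; norm_num)

theorem U_add (h : w ∈ W A) (n n' : N) : U (n + n') w = U n w + U n' w := by
  by_cases e : n = 0
  · simp [e]
  by_cases e' : n' = 0
  · simp [e']
  by_cases k : n = n'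
  · rw [k, add2, add2, U_zero]
  obtain ⟨s, h1, h2, h3⟩ := lines n n' e e' k
  have h4 : ν s (n + n') = n := by rw [← h2, ← h1, ← ν_mul, ← ν_mul, h3, ν_one]
  refine (add0.1 (H.f3 s h3 (fun j => k (by simpa [j] using h1)) _ ?_)).symm
  simp only [smul_add, U_s h, h1, h2, h4]
  abel

theorem inj4 {w1 w2 w3 w4 : A} (h1 : w1 ∈ W A) (h2 : w2 ∈ W A) (h3 : w3 ∈ W A) (h4 : w4 ∈ W A)
    (e : U e1 w1 + U e2 w2 + U e3 w3 + U e4 w4 = 0) : w1 = 0 ∧ w2 = 0 ∧ w3 = 0 ∧ w4 = 0 := by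
  have st : ∀ (s : S5) {a b c d : N}, U a w1 + U b w2 + U c w3 + U d w4 = 0 →
      U (ν s a + a) w1 + U (ν s b + b) w2 + U (ν s c + c) w3 + U (ν s d + d) w4 = 0 := fun s a b c d k => by
    have := congrArg (((s, 1) : Γ) • ·) k
    simp only [smul_add, U_s h1, U_s h2, U_s h3, U_s h4, smul_zero] at this
    rw [H.U_add h1, H.U_add h2, H.U_add h3, H.U_add h4, ← add_zero 0]
    nth_rw 1 [← this]
    rw [← k]; abel
  have c : ν d1 e1 + e1 = 0 ∧ ν d1 e2 + e2 = e1 ∧ ν d1 e3 + e3 = 0 ∧ ν d1 e4 + e4 = e3 ∧ ν d2 e1 + e1 = 0 ∧ ν d2 e2 + e2 = 0 ∧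
    ν d2 e3 + e3 = e2 ∧ ν d2 e4 + e4 = e1 + e2 := by decide +kernel
  obtain ⟨c1, c2, c3, c4, c5, c6, c7, c8⟩ := c
  have k1 := st d1 e
  have k2 := st d2 e
  rw [c1, c2, c3, c4] at k1
  rw [c5, c6, c7, c8] at k2
  have k3 := st d2 k1
  have k4 := st d1 k2
  rw [c5, c7] at k3
  have k5 := st d1 k3
  simp only [ν_zero, add_zero, U_zero, zero_add, c2, U_e1 h4] at k5
  simp only [ν_zero, add_zero, U_zero, zero_add, c2, U_e1 h3, k5, U_zw] at k4
  simp only [add_zero, U_zero, zero_add, U_e1 h2, k5, U_zw] at k1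
  exact ⟨by simpa [k1, k4, k5, U_e1 h1] using e, k1, k4, k5⟩

theorem card_W : Nat.card (W A) = 2 ^ 3 := by
  have := H.finA
  have h1 : Nat.card (W A × W A × W A × W A) ≤ Nat.card A := Nat.card_le_card_of_injective
    (fun x => U e1 x.1.1 + U e2 x.2.1.1 + U e3 x.2.2.1.1 + U e4 x.2.2.2.1) fun x y e => by
      obtain ⟨a, b, c, d⟩ := H.inj4 (x + y).1.2 (x + y).2.1.2 (x + y).2.2.1.2 (x + y).2.2.2.2 (by
        simp only [Prod.fst_add, Prod.snd_add, Submodule.coe_add, U_addw]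
        rw [← add0.2 e]; beta_reduce; abel)
      exact add0.1 (Prod.ext (Subtype.ext a) (Prod.ext (Subtype.ext b) (Prod.ext (Subtype.ext c) (Subtype.ext d))))
  let D : Subgroup Γ :=
    { carrier := {γ | ν γ.1 e1 = e1 ∧ γ.2 = 1}
      one_mem' := ⟨ν_one _, rfl⟩
      mul_mem' := fun h k => ⟨by rw [Prod.fst_mul, ν_mul, k.1, h.1], by rw [Prod.snd_mul, h.2, k.2, mul_one]⟩
      inv_mem' := fun {γ} h => ⟨by nth_rw 1 [← h.1]; exact ν_inv .., by rw [Prod.snd_inv, h.2, inv_one]⟩ }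
  have pD : IsPGroup 2 D := fun γ => ⟨2, Subtype.ext (Prod.ext (by
    simpa [pow_succ, mul_assoc] using (d8 _ γ.2.1).1) (by simp [γ.2.2]))⟩
  obtain ⟨w, hw, w0⟩ := pD.exists_fixed_point_of_prime_dvd_card_of_fixed_point A (by rw [H.cA]; norm_num) (a := 0)
    fun _ => smul_zero _
  have wW : w ∈ W A := fun d e => hw ⟨(d, 1), e, rfl⟩
  have y7' : ((1, y7) : Γ) ^ 7 = 1 := by simp [y7_pow]
  have h2 : Nat.card (Fin 7) ≤ Nat.card (W A) := Nat.card_le_card_of_injective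
    (fun i => ⟨((1, y7) : Γ) ^ (i : ℕ) • w, by rw [Prod.pow_mk, one_pow]; exact W_m _ wW⟩)
    fun i j e => orb7 y7' (fun k => w0 (H.f7 w k).symm) (congrArg Subtype.val e)
  rw [Module.natCard_eq_pow_finrank (K := F) (V := W A), Nat.card_zmod] at h2 ⊢
  simp only [Nat.card_prod, H.cA, Module.natCard_eq_pow_finrank (K := F) (V := W A), Nat.card_zmod, ← pow_add] at h1
  have h3 := (Nat.pow_le_pow_iff_right one_lt_two).1 h1
  have h4 : ¬ Module.finrank F (W A) ≤ 2 := fun k => by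
    have := h2.trans (Nat.pow_le_pow_right two_pos k); simp at this
  congr 1; omega

theorem s_triv (s : S5) (z : B) : ((s, 1) : Γ) • z = z := by
  have := H.finB
  induction s using s5_ind with
  | h1 => exact s_one z
  | h i s ih =>
    rw [s_mul, ih]
    generalize ht : swap i.castSucc i.succ = t
    have t2 : t * t = 1 := ht ▸ swap_mul_self ..
    by_contra e
    have y7' : ((1, y7) : Γ) ^ 7 = 1 := by simp [y7_pow]
    set u := ((t, 1) : Γ) • z + z
    have u0 : u ≠ 0 := mt add0.1 e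
    have ut : ((t, 1) : Γ) • u = u := by rw [smul_add, ← s_mul, t2, s_one, add_comm]
    let o : Option (Fin 7) → B := fun j => j.elim 0 fun j => ((1, y7) : Γ) ^ (j : ℕ) • u
    have oi : Function.Injective o := by
      rintro (_ | j) (_ | k) h
      · rfl
      · exact (u0 ((smul_eq_zero_iff_eq _).1 h.symm)).elim
      · exact (u0 ((smul_eq_zero_iff_eq _).1 h)).elim
      · exact congrArg some (orb7 y7' (fun k => u0 (H.f7' u k)) h)
    obtain ⟨_ | j, k⟩ := ((Nat.bijective_iff_injective_and_card o).2 ⟨oi, by simp [H.cB]⟩).2 z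
    · exact e (k ▸ smul_zero _)
    · exact e (by rw [← k]; simp only [o, Option.elim, Prod.pow_mk, one_pow]; rw [s_comm, ut])

theorem b_U (h : w ∈ W A) (h' : w' ∈ W A) (n n' : N) : b (U n w) (U n' w') = f n n' • b w (U e4 w') := by
  have k0 : ∀ n', f e1 n' = 0 → b w (U n' w') = 0 := fun n' e => by
    obtain ⟨d, k, m, rfl⟩ := perp n' e
    rw [H.U_add h', map_add, ← U_s h']
    nth_rw 1 [← h d k]
    rw [H.eqv, H.s_triv, add2]
  have k1 : ∀ n', b w (U n' w') = f e1 n' • b w (U e4 w') := fun n' => by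
    have c : f e1 e4 = 1 := by decide
    rcases z2 (f e1 n') with e | e
    · rw [k0 _ e, e, zero_smul]
    · rw [e, one_smul, ← add0, ← map_add, ← H.U_add h', k0 _ (by rw [f_addr, e, c]; rfl)]
  by_cases e : n = 0
  · simp [e]
  obtain ⟨s, rfl⟩ := ν_trans n e
  rw [U_eq h, ← ν_inv' s n', ← U_s h', H.eqv, H.s_triv, k1, f_ν]

theorem p_U (h : w ∈ W A) (n : N) : p (U n w) = 0 := by
  have k : ∀ n ≠ 0, p (U n w) = p w := fun n e => by
    obtain ⟨s, rfl⟩ := ν_trans n e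
    rw [U_eq h, H.peqv, H.s_triv]
  have k1 := H.padd (U e1 w) (U e2 w)
  rw [← H.U_add h, k _ (by decide), k _ (by decide), k _ (by decide), H.b_U h h, show f e1 e2 = 0 by decide, zero_smul,
    add_zero, add2] at k1
  by_cases e : n = 0
  · simpa [e, add2] using H.padd 0 0
  · rw [k n e, k1]

theorem exists_ε : ∃ ε : V3 →ₗ[F] A, Function.Injective ε ∧ (∀ v, ε v ∈ W A) ∧ ∃ ψ : SL3 ≃* SL3,
    ∀ m v, ((1, m) : Γ) • ε v = ε ((ψ m).1 *ᵥ v) := by
  have := H.finA
  have hr : Module.finrank F (W A) = 3 := Nat.pow_right_injective le_rfl (by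
    have := H.card_W; rwa [Module.natCard_eq_pow_finrank (K := F) (V := W A), Nat.card_zmod] at this)
  let e : V3 ≃ₗ[F] W A := (Module.finBasisOfFinrankEq F (W A) hr).equivFun.symm
  let l : SL3 → V3 →ₗ[F] V3 := fun m =>
    { toFun := fun v => e.symm ⟨((1, m) : Γ) • (e v).1, W_m m (e v).2⟩
      map_add' := fun v w => by rw [← map_add]; congr 1; exact Subtype.ext (by simp)
      map_smul' := fun a v => by rw [RingHom.id_apply, ← map_smul]; congr 1; exact Subtype.ext (by simp [smul_f]) }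
  have hl : ∀ m v, ((1, m) : Γ) • (e v).1 = (e (LinearMap.toMatrix' (l m) *ᵥ v)).1 := fun m v => by
    rw [LinearMap.toMatrix'_mulVec]; simp [l]
  have ei : Function.Injective fun v => (e v).1 := Subtype.val_injective.comp e.injective
  have lm : ∀ m m', LinearMap.toMatrix' (l (m * m')) = LinearMap.toMatrix' (l m) * LinearMap.toMatrix' (l m') := fun m m' =>
    ext_iff_mulVec.2 fun v => ei (by simp only [← mulVec_mulVec, ← hl, ← mul_smul]; simp)
  have l1 : LinearMap.toMatrix' (l 1) = 1 := ext_iff_mulVec.2 fun v => ei (by simp only [← hl, s_one, one_mulVec])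
  let φ : SL3 →* SL3 := MonoidHom.mk' (fun m => ⟨_, det1 ((lm m m⁻¹).symm.trans (by rw [mul_inv_cancel, l1]))⟩)
    fun m m' => Subtype.ext (lm m m')
  have := simple_SL
  have fi : Function.Injective φ := φ.ker_eq_bot_iff.1 (φ.normal_ker.eq_bot_or_eq_top.resolve_right fun k => by
    have k1 : LinearMap.toMatrix' (l y7) = 1 := congrArg Subtype.val (k.ge (Subgroup.mem_top y7))
    have := H.f7 _ ((hl y7 1).trans (by rw [k1, one_mulVec]))
    exact absurd (ei (a₁ := 1) (a₂ := 0) (by simpa only [map_zero, Submodule.coe_zero] using this)) (by decide))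
  exact ⟨(W A).subtype ∘ₗ e.toLinearMap, ei, fun v => (e v).2, .ofBijective φ (Finite.injective_iff_bijective.1 fi), hl⟩

theorem main : ∃ (Φ : Λ ≃+ A) (ζ : V3 ≃+ B) (ψ : SL3 ≃* SL3), (∀ s m x, ((s, m) : Γ) • Φ x = Φ (act s (ψ m).1 x)) ∧
    (∀ s m v, ((s, m) : Γ) • ζ (v ᵥ* (ψ m).1) = ζ v) ∧ (∀ x y, b (Φ x) (Φ y) = ζ (β x y)) ∧ ∀ x, p (Φ x) = ζ (q x) := by
  have := H.finA
  have := H.finB
  obtain ⟨ε, ei, eW, ψ, hψ⟩ := H.exists_ε
  let a : Fin 3 → V3 := fun j => Pi.single j 1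
  have ea : ∀ v : V3, v = v 0 • a 0 + v 1 • a 1 + v 2 • a 2 := by decide
  let γ : V3 → V3 → B := fun v w => b (ε v) (U e4 (ε w))
  have gl : ∀ u v w, γ (u + v) w = γ u w + γ v w := fun u v w => by simp [γ]
  have gs : ∀ v w, γ v w = γ w v := fun v w => by
    simp only [γ]
    rw [H.sym, ← U_e1 (eW v), H.b_U (eW w) (eW v), show f e4 e1 = 1 by decide, one_smul, U_e1 (eW v)]
  have gr : ∀ u v w, γ w (u + v) = γ w u + γ w v := fun u v w => by simp [γ]
  have ge : ∀ (M : SL3) v w, ((1, ψ.symm M) : Γ) • γ v w = γ (M.1 *ᵥ v) (M.1 *ᵥ w) := fun M v w => by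
    simp only [γ]; rw [← H.eqv, U_m, hψ, hψ, ψ.apply_symm_apply]
  have g0 : ∀ v, γ v v = 0 := by
    let δ : V3 →+ B := .mk' (fun v => γ v v) fun v w => by rw [gl, gr, gr, gs w v, add_assoc, ← add_assoc (γ v w), add2, zero_add]
    by_contra! k
    obtain ⟨v, k⟩ := k
    have di : Function.Injective δ := (injective_iff_map_eq_zero δ).2 fun w e => by
      by_contra w0
      have : ∀ v w : V3, w ≠ 0 → v = 0 ∨ ∃ m ∈ invs, m * m = 1 ∧ m *ᵥ w = v := by decide +kernel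
      obtain rfl | ⟨m, -, m2, rfl⟩ := this v w w0
      · exact k (map_zero δ)
      · exact k ((ge ⟨m, det1 m2⟩ w w).symm.trans (by rw [show γ w w = 0 from e, smul_zero]))
    obtain ⟨u, hu⟩ := ((Nat.bijective_iff_injective_and_card δ).2 ⟨di, by simp [H.cB]⟩).2 (γ (a 0) (a 1))
    have t : ∀ (M : M3) (h : M.det = 1), δ (M *ᵥ u) = γ (M *ᵥ a 0) (M *ᵥ a 1) := fun M h => by
      rw [← ge ⟨M, h⟩, ← hu]; exact (ge ⟨M, h⟩ u u).symm
    have t1 := t !![1, 0, 1; 0, 1, 0; 0, 0, 1] (by decide)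
    have t2 := t !![1, 0, 0; 0, 1, 1; 0, 0, 1] (by decide)
    have t3 := t !![0, 1, 0; 1, 0, 0; 0, 0, 1] (by decide)
    have t4 := t !![1, 1, 0; 0, 1, 0; 0, 0, 1] (by decide)
    have t5 := t !![1, 0, 0; 0, 0, 1; 0, 1, 0] (by decide)
    have t6 := t !![1, 0, 0; 0, 1, 0; 0, 1, 1] (by decide)
    rw [show _ *ᵥ a 0 = a 0 by decide, show _ *ᵥ a 1 = a 1 by decide, ← hu] at t1 t2
    rw [show _ *ᵥ a 0 = a 1 by decide, show _ *ᵥ a 1 = a 0 by decide, gs, ← hu] at t3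
    rw [show _ *ᵥ a 0 = a 0 by decide, show _ *ᵥ a 1 = a 0 + a 1 by decide, gr, ← hu] at t4
    rw [show _ *ᵥ a 0 = a 0 by decide, show _ *ᵥ a 1 = a 2 by decide] at t5
    rw [show _ *ᵥ a 0 = a 0 by decide, show _ *ᵥ a 1 = a 1 + a 2 by decide, gr, ← hu, ← t5, ← map_add] at t6
    exact (by decide : ∀ u : V3, !![1, 0, 1; 0, 1, 0; 0, 0, 1] *ᵥ u = u → !![1, 0, 0; 0, 1, 1; 0, 0, 1] *ᵥ u = u →
      !![0, 1, 0; 1, 0, 0; 0, 0, 1] *ᵥ u = u → !![1, 1, 0; 0, 1, 0; 0, 0, 1] *ᵥ u = Pi.single 0 1 + u →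
      !![1, 0, 0; 0, 1, 0; 0, 1, 1] *ᵥ u ≠ u + !![1, 0, 0; 0, 0, 1; 0, 1, 0] *ᵥ u) u (di t1) (di t2) (di t3)
      (di (t4.trans (map_add δ (a 0) u).symm)) (di t6)
  let ζ : V3 →+ B := .mk' (fun v => v 0 • γ (a 1) (a 2) + v 1 • γ (a 2) (a 0) + v 2 • γ (a 0) (a 1)) fun v w => by
    simp only [Pi.add_apply, add_smul]; abel
  have ζe : ∀ v, ζ v = v 0 • γ (a 1) (a 2) + v 1 • γ (a 2) (a 0) + v 2 • γ (a 0) (a 1) := fun _ => rfl
  have gsl : ∀ (c : F) v w, γ (c • v) w = c • γ v w := fun c v w => by rcases z2 c with rfl | rfl <;> simp [γ]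
  have gsr : ∀ (c : F) v w, γ v (c • w) = c • γ v w := fun c v w => by rw [gs, gsl, gs]
  have gc : ∀ v w, γ v w = ζ (cr v w) := fun v w => by
    nth_rw 1 [ea v, ea w]
    simp only [gl, gr, gsl, gsr, g0, gs (a 0) (a 2), gs (a 1) (a 0), gs (a 2) (a 1), ζe, cr, smul_zero, cons_val, add_smul,
      mul_smul, smul_add]
    abel
  let Φ : Λ →+ A := .mk' (fun x => U (x 0) (ε (a 0)) + U (x 1) (ε (a 1)) + U (x 2) (ε (a 2))) fun x y => by
    simp only [Pi.add_apply, H.U_add (eW _)]; abel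
  have Φe : ∀ x, Φ x = U (x 0) (ε (a 0)) + U (x 1) (ε (a 1)) + U (x 2) (ε (a 2)) := fun _ => rfl
  have Φi : Function.Injective Φ := (injective_iff_map_eq_zero Φ).2 fun x e => by
    let v : ℕ → V3 := fun k j => bt k (x j)
    obtain ⟨k0, k1, k2, k3⟩ := H.inj4 (eW (v 0)) (eW (v 1)) (eW (v 2)) (eW (v 3)) (by
      rw [← e, Φe, ← bt_sum (x 0), ← bt_sum (x 1), ← bt_sum (x 2), ea (v 0), ea (v 1), ea (v 2), ea (v 3)]
      simp only [map_add, map_smul, U_addw, U_sw, H.U_add (eW _), U_sn, v]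
      abel)
    have : ∀ {k}, ε (v k) = 0 → ∀ j, bt k (x j) = 0 := fun h => congrFun (ei (h.trans (map_zero ε).symm))
    ext j
    rw [← bt_sum (x j), this k0, this k1, this k2, this k3]; simp
  have Φb := (Nat.bijective_iff_injective_and_card Φ).2 ⟨Φi, by simp [H.cA, card_N]⟩
  have bΦ : ∀ x y, b (Φ x) (Φ y) = ζ (β x y) := fun x y => by
    have : ∀ n n' v w, b (U n (ε v)) (U n' (ε w)) = f n n' • γ v w := fun n n' v w => H.b_U (eW v) (eW w) n n'
    simp only [Φe, map_add, AddMonoidHom.add_apply, this, g0, gs (a 0) (a 2), gs (a 1) (a 0), gs (a 2) (a 1), ζe, β,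
      smul_zero, cons_val, add_smul]
    abel
  have ζb := (Nat.bijective_iff_surjective_and_card ζ).2 ⟨AddMonoidHom.range_eq_top.1 (H.gen _ fun x y => by
    obtain ⟨x, rfl⟩ := Φb.2 x
    obtain ⟨y, rfl⟩ := Φb.2 y
    exact ⟨_, (bΦ x y).symm⟩), by simp [H.cB]⟩
  refine ⟨.ofBijective Φ Φb, .ofBijective ζ ζb, ψ, fun s m x => ?_, fun s m v => ?_, bΦ, fun x => ?_⟩
  · show _ • Φ x = Φ _
    simp only [Φe, s_split s m, smul_add, U_m, hψ, U_s (eW _), act, H.U_add (eW _), U_sn]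
    rw [ea ((ψ m).1 *ᵥ a 0), ea ((ψ m).1 *ᵥ a 1), ea ((ψ m).1 *ᵥ a 2)]
    simp only [map_add, map_smul, U_addw, U_sw, a, mulVec_single_one, col_apply]
    abel
  · show _ • ζ _ = ζ v
    obtain ⟨u, w, e⟩ := cr_surj (v ᵥ* (ψ m).1)
    have k := cr_mul (ψ m).1 u w
    rw [(ψ m).2, one_smul, e] at k
    have k2 := congrArg (· ᵥ* ((ψ m)⁻¹).1) k
    simp only [vecMul_vecMul, ← Matrix.SpecialLinearGroup.coe_mul, mul_inv_cancel, Matrix.SpecialLinearGroup.coe_one,
      vecMul_one] at k2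
    rw [s_split, H.s_triv, ← e, ← gc, ← k2, ← gc, ← ge, ψ.symm_apply_apply]
  · show p (Φ x) = ζ _
    have : ∀ n n' v w, b (U n (ε v)) (U n' (ε w)) = f n n' • γ v w := fun n n' v w => H.b_U (eW v) (eW w) n n'
    simp only [Φe, H.padd, H.p_U (eW _), map_add, AddMonoidHom.add_apply, this, gs (a 0) (a 2), ζe, q, cons_val,
      f_comm (x 2) (x 0)]
    abel

end TH

end Cfsg.Lib.J4P
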