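import Cfsg.Agent.Lib.J4P.Q

/-! The quotient `Y = C(z) / Q`: the data and first consequences. -/

set_option autoImplicit false
set_option synthInstance.maxSize 4096

namespace Cfsg.Lib.J4P

open Subgroup Cfsg.Lib.BG Cfsg.Lib.Transfer Cfsg.Lib.L72
open scoped Cfsg.Lib.Transfer

/-- What is known about `C(z) / Q`. -/
structure YD (Y : Type*) [Group Y] where
  K : Subgroup Y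
  A : Subgroup Y
  σ : Y → S5
  θ : N → Y
  p : Y
  t : Y
  σ_mul : ∀ {a b}, a ∈ K → b ∈ K → σ (a * b) = σ a * σ b
  surj : ∀ s, ∃ k ∈ K, σ k = s ∧ k * p = p * k
  θ_add : ∀ n m, θ (n + m) = θ n * θ m
  θ_inj : ∀ {n}, θ n = 1 → n = 0
  θ_K : ∀ n, θ n ∈ K
  θ_σ : ∀ n, σ (θ n) = 1
  θ_conj : ∀ {k}, k ∈ K → ∀ n, k * θ n * k⁻¹ = θ (ν (σ k) n)
  p_K : p ∈ K
  p_σ : σ p = 1
  p3 : orderOf p = 3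
  pn : ∀ {k}, k ∈ K → k * p = p * k ∨ k * p * k⁻¹ = p⁻¹
  t_K : t ∈ K
  t_σ : σ t = 1
  t_p : t * p * t⁻¹ = p⁻¹
  ker : ∀ {k}, k ∈ K → σ k = 1 → k * p = p * k → ∃ n, k = θ n ∨ k = θ n * p ∨ k = θ n * p⁻¹
  A_K : A ≤ K
  A_sq : ∀ {a}, a ∈ A → a * a = 1
  A_σ : ∀ {a}, a ∈ A → E1 (σ a)
  A_p : ∀ {a}, a ∈ A → a * p = p * a
  A_surj : ∀ e, E1 e → ∃ a ∈ A, σ a = e
  A_θ : ∀ {n}, θ n ∈ A ↔ N1 n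
  A_nm : ∀ {k a}, k ∈ K → σ k 0 = 0 → a ∈ A → k * a * k⁻¹ ∈ A
  o2 : ∀ S : Subgroup Y, IsPGroup 2 S → S.Normal → S = ⊥
  syl : ∃ T, Syl 2 T ⊤ ∧ ∀ k ∈ T, k ∈ K ∧ ν (σ k) e1 = e1
  pr : ¬ 23 ∣ Nat.card Y ∧ ¬ 127 ∣ Nat.card Y ∧ ¬ 257 ∣ Nat.card Y
  cc : ∀ {y n}, y * θ n * y⁻¹ ∈ K → y * θ n * y⁻¹ * p = p * (y * θ n * y⁻¹)
  ce : ∀ {d a}, d * θ e1 = θ e1 * d → a ∈ A → d * a * d⁻¹ ∈ K ∧ d * a * d⁻¹ * p = p * (d * a * d⁻¹)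
  cf : ∀ {y n m}, y * θ e1 * y⁻¹ = θ n → y * θ e2 * y⁻¹ = θ m → y ∈ K
  ch : ∀ {s}, s ∈ K → σ s = 1 → s * s = 1 → s * p * s⁻¹ = p⁻¹ → ¬ ∀ a ∈ A, s * a = a * s
  cj : ∃ x ∈ normalClosure (A : Set Y), x ^ 3 = 1 ∧ x ≠ 1 ∧ ∀ E : Subgroup Y, Nat.card E = 9 → ¬ ∀ e ∈ E, e ≠ 1 → IsConj x e

end Cfsg.Lib.J4P
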