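import Cfsg.Agent.Lib.J4P.YF

/-! Construction of the data on `C(z) / Q`. -/

set_option autoImplicit false
set_option synthInstance.maxSize 4096

namespace Cfsg.Lib.J4P

open Matrix hiding mul_inv_rev
open Subgroup Cfsg.Lib.BG Cfsg.Lib.Transfer Cfsg.Lib.L72 Cfsg.Lib.U6 Cfsg.Lib.Orth QuadraticMap
open scoped Cfsg.Lib.Transfer

variable {G : Type*} [Group G] [Finite G] {x : G} {Q : Subgroup G} {W : Type*} [AddCommGroup W] [Module F W] {φ : QuadraticForm F W}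

theorem burn [Finite W] (hW : Nat.card W = 4096) {Γ : Subgroup (O φ)} (x : Γ) (h1 : 4 ≤ Nat.card (O.fix x.1))
    (h2 : Nat.card (O.fix x.1) ≤ 16) (E : Subgroup Γ) (c : Nat.card E = 9) : ¬ ∀ e ∈ E, e ≠ 1 → IsConj x e := fun h => by
  classical
  have : Finite E := Nat.finite_of_card_ne_zero (by omega)
  have := Fintype.ofFinite E
  have := Fintype.ofFinite W
  have k := MulAction.sum_card_fixedBy_eq_card_orbits_mul_card_group E W
  have k1 : ∀ e ∈ Finset.univ.erase (1 : E), Fintype.card (MulAction.fixedBy W e) = Nat.card (O.fix x.1) := fun e he => by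
    obtain ⟨g, j⟩ := isConj_iff.1 (h e e.2 fun i => Finset.ne_of_mem_erase he (Subtype.ext i))
    rw [← Nat.card_eq_fintype_card]
    refine (Nat.card_congr (Equiv.subtypeEquiv g.1.1.toEquiv fun v => ?_)).symm
    rw [O.mem_fix, MulAction.mem_fixedBy]
    change _ ↔ e.1.1.1 (g.1.1 v) = g.1.1 v
    rw [← j]
    change _ ↔ g.1.1 (x.1.1 ((g.1⁻¹).1 (g.1.1 v))) = g.1.1 v
    rw [O.inv_apply_apply, g.1.1.injective.eq_iff]
  rw [← Finset.add_sum_erase _ _ (Finset.mem_univ 1), Finset.sum_congr rfl k1, Finset.sum_const, Finset.card_erase_of_mem (Finset.mem_univ _),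
    Finset.card_univ, ← Nat.card_eq_fintype_card (α := E), c, ← Nat.card_eq_fintype_card, MulAction.fixedBy_one_eq_univ, Nat.card_univ,
    hW] at k
  have k2 : Nat.card (O.fix x.1) ∣ 4096 := hW ▸ (O.fix x.1).toAddSubgroup.card_addSubgroup_dvd_card
  generalize Nat.card (O.fix x.1) = n at *
  interval_cases n <;> simp at k k2 <;> omega

omit [Finite G] in
theorem o3_inv (h : x ^ 3 = 1) (e : x = x⁻¹) : x = 1 := by
  rw [pow_three', ← mul_eq_one_iff_eq_inv.2 e, mul_assoc, mul_left_cancel_iff, mul_eq_left] at h; exact h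

namespace QD

variable {D : Cd G} (P : QD D Q)
include P

theorem fix3 (C : CD D.z Q φ) (hx : x ∈ D.K) (g : D.g x = 1) (s : ∀ n, ν (D.σ x) n = n → n = 0) :
    4 ≤ Nat.card (O.fix (C.ρ x)) ∧ Nat.card (O.fix (C.ρ x)) ≤ 16 := by
  have xH : x ∈ 𝐂[D.z] := (D.mem_H hx).2 (g ▸ ⟨rfl, rfl⟩)
  have h1 := card_le_of_le (show D.Z ≤ C.pre (O.fix (C.ρ x)) from fun z hz => by
    obtain ⟨v, rfl⟩ := D.mem_Z.1 hz
    exact ⟨P.ζ v, O.mem_fix.2 (C.fix_of_commute (cz xH) (P.ζ v) ((D.fix_iff hx).2 (by rw [g, vecMul_one])))⟩)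
  have h2 := card_fib (U := C.pre (O.fix (C.ρ x))) (fun u => (D.g u 0 2, D.g u 1 2)) Finset.univ D.Z (fun _ _ => Finset.mem_univ _)
    fun a ha b hb e => by
      obtain ⟨a1, a2, j⟩ := P.g ha.1
      obtain ⟨b1, b2, i⟩ := P.g hb.1
      simp [i, j, tv] at e
      have l := D.mem_L (P.K ha.1) (P.K hb.1) (by rw [P.σ ha.1, P.σ hb.1]) (by rw [i, j, e.1, e.2])
      have m := mul_mem (inv_mem ha) hb
      have := fixc C hx xH l m.1 (O.mem_fix.1 m.2)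
      exact (D.c_zero l).1 (funext fun i => s _ (by rw [← act_one, ← g, this]))
  rw [C.card_pre, D.card_Z] at h1 h2
  simp at h2
  omega

set_option maxHeartbeats 1000000 in
theorem exists_YD (hT : Syl 2 D.T ⊤) : ∃ (Y : Type) (_ : Group Y) (_ : Finite Y) (r : 𝐂[D.z] →* Y) (E : YD Y) (p : 𝐂[D.z]),
    Function.Surjective r ∧ (∀ a, r a = 1 ↔ a.1 ∈ Q) ∧ r p = E.p ∧ p ^ 3 = 1 ∧ Q ⊓ 𝐂[p.1] ≤ zpowers D.z := by
  classical
  obtain ⟨φ, ⟨C⟩⟩ := U6.exists_cd P.lg P.es (n := 6) P.card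
  obtain ⟨rh, rs, rv0⟩ : ∃ rh : 𝐂[D.z] →* C.Γ, Function.Surjective rh ∧ ∀ a, (rh a).1 = C.ρ a :=
    ⟨C.ρh.rangeRestrict, C.ρh.rangeRestrict_surjective, fun _ => rfl⟩
  obtain ⟨r, re⟩ : ∃ r : G → C.Γ, ∀ {a} (h : a ∈ 𝐂[D.z]), r a = rh ⟨a, h⟩ :=
    ⟨fun a => if h : a ∈ 𝐂[D.z] then rh ⟨a, h⟩ else 1, fun h => dif_pos h⟩
  have rv : ∀ {a}, a ∈ 𝐂[D.z] → (r a).1 = C.ρ a := fun h => by rw [re h, rv0]
  have rm : ∀ {a b}, a ∈ 𝐂[D.z] → b ∈ 𝐂[D.z] → r (a * b) = r a * r b := fun ha hb => by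
    rw [re ha, re hb, re (mul_mem ha hb)]; exact map_mul rh ⟨_, ha⟩ ⟨_, hb⟩
  have ri : ∀ {a}, a ∈ 𝐂[D.z] → r a⁻¹ = (r a)⁻¹ := fun ha => by rw [re ha, re (inv_mem ha)]; exact map_inv rh ⟨_, ha⟩
  have rc : ∀ {a b}, a ∈ 𝐂[D.z] → b ∈ 𝐂[D.z] → r (a * b * a⁻¹) = r a * r b * (r a)⁻¹ := fun ha hb => by
    rw [rm (mul_mem ha hb) (inv_mem ha), rm ha hb, ri ha]
  have rk : ∀ {a}, a ∈ 𝐂[D.z] → (r a = 1 ↔ a ∈ Q) := fun h => by rw [Subtype.ext_iff, rv h]; exact C.ker (cz h)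
  have rq : ∀ {a b}, a ∈ 𝐂[D.z] → b ∈ 𝐂[D.z] → r a = r b → a⁻¹ * b ∈ Q := fun ha hb e =>
    (rk (mul_mem (inv_mem ha) hb)).1 (by rw [rm (inv_mem ha) hb, ri ha, e, inv_mul_cancel])
  have rs' : ∀ y, ∃ a ∈ 𝐂[D.z], r a = y := fun y => let ⟨a, e⟩ := rs y; ⟨a, a.2, (re a.2).trans e⟩
  let im : Subgroup G → Subgroup C.Γ := fun X => (X.subgroupOf _).map rh
  have mi : ∀ {X y}, y ∈ im X ↔ ∃ a ∈ X, a ∈ 𝐂[D.z] ∧ r a = y := ⟨fun ⟨a, h, e⟩ => ⟨a, h, a.2, (re a.2).trans e⟩,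
    fun ⟨a, h, k, e⟩ => ⟨⟨a, k⟩, h, (re k).symm.trans e⟩⟩
  obtain ⟨σ, σe⟩ : ∃ σ : C.Γ → S5, ∀ {k}, k ∈ D.K → k ∈ 𝐂[D.z] → σ (r k) = D.σ k := by
    refine ⟨fun y => if h : y ∈ im D.K then D.σ (mi.1 h).choose else 1, fun {k} hk kH => ?_⟩
    have m : r k ∈ im D.K := mi.2 ⟨k, hk, kH, rfl⟩
    obtain ⟨a1, a2, a3⟩ := (mi.1 m).choose_spec
    have := P.σ (rq a2 kH a3)
    rw [D.σ_mul (inv_mem a1) hk, D.σ_inv a1, inv_mul_eq_one] at this
    exact (dif_pos m).trans this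
  choose t ht c using fun n => D.c_surj ![0, 0, n]
  have tH := fun n => D.LH (ht n)
  have rL : ∀ {l}, l ∈ D.L → r l = r (t (D.c l 2)) := fun hl =>
    Subtype.ext (by rw [rv (D.LH hl), rv (tH _)]; exact P.ρL C hl (ht _) (by rw [c]; rfl))
  have gH : ∀ {k}, k ∈ D.K → D.g k = 1 → k ∈ 𝐂[D.z] := fun hk e => (D.mem_H hk).2 (e ▸ ⟨rfl, rfl⟩)
  have VH : ∀ {a}, a ∈ D.V → a ∈ 𝐂[D.z] := fun h => gH h.1 h.2.2.1
  obtain ⟨p, hp, p1, p2, p3⟩ : ∃ p ∈ D.K, D.σ p = 1 ∧ D.g p = P3 ∧ p ^ 3 = 1 := by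
    obtain ⟨k, hk, k1, k2⟩ := D.surj 1 P3 (by decide)
    exact ⟨_, pow_mem hk 4, by rw [D.σ_pow hk, k1, one_pow], by rw [D.g_pow hk, k2]; decide +kernel, by
      rw [← pow_mul, mul_comm, pow_mul, D.pow4 ((D.ker (pow_mem hk 3)).2 ⟨by rw [D.σ_pow hk, k1, one_pow],
        by rw [D.g_pow hk, k2]; decide +kernel⟩)]⟩
  have pH : p ∈ 𝐂[D.z] := (D.mem_H hp).2 (p2 ▸ ⟨rfl, rfl⟩)
  have cp : ∀ {k}, k ∈ D.K → k ∈ 𝐂[D.z] → ∀ i {a b}, D.g k * P3 = tv a b * P3 ^ i * D.g k → r k * r p * (r k)⁻¹ = r p ^ i :=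
    fun hk kH i _ _ e => Subtype.ext (by simpa only [coe_mul, coe_inv, coe_pow, rv kH, rv pH] using P.cp C hp p1 p2 p3 hk kH i e)
  have gp : ∀ {k}, k ∈ D.K → D.g k = 1 → r k * r p = r p * r k := fun hk j => mul_inv_eq_iff_eq_mul.1
    ((cp hk (gH hk j) 1 (a := 0) (b := 0) (by rw [j]; decide)).trans (pow_one _))
  have rp3 : r p ^ 3 = 1 := by rw [re pH, ← map_pow, show (⟨p, pH⟩ ^ 3 : 𝐂[D.z]) = 1 from Subtype.ext p3, map_one]
  have rp1 : r p ≠ 1 := fun e => by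
    obtain ⟨a, b, j⟩ := P.g ((rk pH).1 e)
    rw [p2] at j; revert a b; decide
  have sq : r p ^ 2 = (r p)⁻¹ := (pow_two _).trans (o3_sq rp3)
  have pn : ∀ {k}, k ∈ D.K → k ∈ 𝐂[D.z] → r k * r p = r p * r k ∧ (∃ a b, D.g k = tv a b ∨ D.g k = tv a b * P3 ∨
      D.g k = tv a b * (P3 * P3)) ∨ r k * r p * (r k)⁻¹ = (r p)⁻¹ := fun hk kH =>
    (blk (D.det_g hk) ((D.mem_H hk).1 kH).1 ((D.mem_H hk).1 kH).2).imp
      (fun ⟨⟨_, _, e⟩, h⟩ => ⟨mul_inv_eq_iff_eq_mul.1 ((cp hk kH 1 (by rwa [pow_one])).trans (pow_one _)), h⟩)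
      fun ⟨⟨_, _, e⟩, _⟩ => (cp hk kH 2 (by rwa [pow_two])).trans sq
  have rR : ∀ {k}, k ∈ D.K → D.σ k = 1 → ∀ {a b}, D.g k = tv a b → ∃ n, r k = r (t n) := fun hk e _ _ g =>
    let ⟨l, hl, j⟩ := P.ρR C hk e g
    ⟨_, (Subtype.ext (by rw [rv ((D.mem_H hk).2 (g ▸ ⟨rfl, rfl⟩)), rv (D.LH hl), j])).trans (rL hl)⟩
  obtain ⟨τ, hτ, τ1, τ2⟩ := D.surj 1 !![0, 1, 0; 1, 0, 0; 0, 0, 1] (by decide)
  have τH : τ ∈ 𝐂[D.z] := (D.mem_H hτ).2 (τ2 ▸ ⟨rfl, rfl⟩)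
  have ti : ∀ {n}, r (t n) = 1 → n = 0 := fun e => by simpa [c] using (P.L (ht _)).1 ((rk (tH _)).1 e)
  have ta : ∀ n m, r (t (n + m)) = r (t n) * r (t m) := fun n m => by
    rw [← rm (tH n) (tH m), rL (mul_mem (ht n) (ht m)), D.c_mul (ht n) (ht m), c, c]; rfl
  have t0 : r (t 0) = 1 := by simpa using ta 0 0
  have tj : ∀ {n m}, r (t n) = r (t m) → n = m := fun e => add0.1 (ti (by rw [ta, e, ← ta, add2, t0]))
  refine ⟨C.Γ, inferInstance, inferInstance, rh, ⟨im D.K, im D.V, σ, fun n => r (t n), r p, r τ, fun ha hb => ?_, fun s => ?_, ta, ti,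
    fun n => mi.2 ⟨_, D.LK (ht n), tH n, rfl⟩, fun n => by rw [σe (D.LK (ht n)) (tH n), D.σ_L (ht n)], fun hk n => ?_,
    mi.2 ⟨p, hp, pH, rfl⟩, by rw [σe hp pH, p1], orderOf_eq_prime rp3 rp1, fun hk => ?_, mi.2 ⟨τ, hτ, τH, rfl⟩, by rw [σe hτ τH, τ1],
    (cp hτ τH 2 (a := 0) (b := 0) (by rw [τ2]; decide)).trans sq, fun hk e j => ?_, map_mono (comap_mono fun _ h => h.1), fun ha => ?_,
    fun ha => ?_, fun ha => ?_, fun e he => ?_, fun {n} => ⟨fun h => ?_, fun h => mi.2 ⟨_, (D.V_L (ht n)).2 fun i => ?_, tH n, rfl⟩⟩,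
    fun hk e ha => ?_, fun S h1 h2 => ?_, ⟨im D.T, ?_, fun k hk => ?_⟩, ?_, fun {y n} h => ?_, fun {d a} e ha => ?_,
    fun {y n m} e e' => ?_, fun hs e1 e2 e3 e4 => ?_, ?_⟩, ⟨p, pH⟩, rs, fun a => by rw [← re a.2]; exact rk a.2, (re pH).symm,
    Subtype.ext p3, fun u hu => C.lg.mem_iff.2 ((C.π_eq_zero hu.1).1 (P.fpf C hp p1 p2
      (C.fix_of_commute (cz pH) hu.1 (mem_cent1.1 hu.2).symm)))⟩
  · obtain ⟨a, a1, a2, rfl⟩ := mi.1 ha
    obtain ⟨b, b1, b2, rfl⟩ := mi.1 hb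
    rw [← rm a2 b2, σe a1 a2, σe b1 b2, σe (mul_mem a1 b1) (mul_mem a2 b2), D.σ_mul a1 b1]
  · obtain ⟨k, hk, e, e'⟩ := D.surj s 1 det_one
    exact ⟨_, mi.2 ⟨k, hk, gH hk e', rfl⟩, by rw [σe hk (gH hk e'), e], gp hk e'⟩
  · obtain ⟨a, a1, a2, rfl⟩ := mi.1 hk
    rw [← rc a2 (tH n), rL (D.nml a1 (ht n)), σe a1 a2, D.c_conj a1 (ht n), c]
    simp [act, D.g22 a1 a2]
  · obtain ⟨a, a1, a2, rfl⟩ := mi.1 hk
    exact (pn a1 a2).imp_left And.left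
  · obtain ⟨k, k1, k2, rfl⟩ := mi.1 hk
    rw [σe k1 k2] at e
    obtain ⟨a, b, i⟩ := ((pn k1 k2).resolve_right fun i => rp1 (o3_inv rp3 (by rwa [j, mul_inv_cancel_right] at i))).2
    have s : ∀ {x}, x ∈ D.K → D.σ x = 1 → D.σ (k * x) = 1 := fun hx i => by rw [D.σ_mul k1 hx, e, i, mul_one]
    rcases i with i | i | i
    · exact (rR k1 e i).imp fun _ => .inl
    · exact (rR (mul_mem k1 (inv_mem hp)) (s (inv_mem hp) (by rw [D.σ_inv hp, p1, inv_one])) (a := a) (b := b) (by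
        rw [D.g_mul k1 (inv_mem hp), i, ← p2, mul_assoc, D.g_inv hp, mul_one])).imp fun _ j => .inr (.inl (by
          rw [← j, rm k2 (inv_mem pH), ri pH, inv_mul_cancel_right]))
    · exact (rR (mul_mem k1 hp) (s hp p1) (a := a) (b := b) (by
        rw [D.g_mul k1 hp, i, p2, mul_assoc, show P3 * P3 * P3 = 1 by decide, mul_one])).imp fun _ j => .inr (.inr (by
          rw [← j, rm k2 pH, mul_inv_cancel_right]))
  · obtain ⟨a, a1, a2, rfl⟩ := mi.1 ha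
    rw [← rm a2 a2, D.V_sq a1, rk (one_mem _)]; exact one_mem _
  · obtain ⟨a, a1, a2, rfl⟩ := mi.1 ha
    rw [σe a1.1 a2]; exact a1.2.1
  · obtain ⟨a, a1, a2, rfl⟩ := mi.1 ha
    exact gp a1.1 a1.2.2.1
  · obtain ⟨a, a1, rfl, -⟩ := D.V_surj he
    exact ⟨_, mi.2 ⟨a, a1, VH a1, rfl⟩, σe a1.1 (VH a1)⟩
  · obtain ⟨a, a1, a2, e⟩ := mi.1 h
    have l := (D.ker a1.1).2 ⟨by rw [← σe a1.1 a2, e, σe (D.LK (ht n)) (tH n), D.σ_L (ht n)], a1.2.2.1⟩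
    rw [rL l] at e
    exact tj e ▸ (D.V_L l).1 a1 2
  · rw [c]; fin_cases i <;> simp [N1, h]
  · obtain ⟨k, k1, k2, rfl⟩ := mi.1 hk
    obtain ⟨a, a1, a2, rfl⟩ := mi.1 ha
    have := D.V_norm k1 (σe k1 k2 ▸ e) a1
    exact mi.2 ⟨_, this, VH this, rc k2 a2⟩
  · refine eq_bot_iff.2 fun y hy => ?_
    obtain ⟨a, rfl⟩ := rs y
    rw [mem_bot, ← re a.2, rk a.2]
    refine P.oq.mx _ (pg_of ?_) (Nml.of_normal _ (S.comap rh)) ⟨a, hy, rfl⟩
    rintro _ ⟨b, hb, rfl⟩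
    obtain ⟨k, e⟩ := t2_of h1 hb
    obtain ⟨j, e'⟩ := t2_of P.oq.pg ((rk (b ^ 2 ^ k).2).1 (by rw [re (b ^ 2 ^ k).2, ← e, ← map_pow]))
    exact ⟨k + j, by rw [pow_add, pow_mul]; exact e'⟩
  · have := ((Hall.subgroupOf_iff le_rfl D.TH).2 (Hall.of_le hT D.TH le_top)).map rh
    rwa [subgroupOf_self, ← MonoidHom.range_eq_map, MonoidHom.range_eq_top.2 rs] at this
  · obtain ⟨a, a1, a2, rfl⟩ := mi.1 hk
    exact ⟨mi.2 ⟨a, a1.1, a2, rfl⟩, σe a1.1 a2 ▸ a1.2.1⟩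
  · have := card_subgroup_dvd_card C.Γ
    rcases wittIndex_eq_or C.nd (m := 6) (by simp) with h | h
    · rw [card_O_plus (m := 5) C.nd (by simp) h] at this
      simp [Finset.prod_range_succ] at this
      exact ⟨fun h => absurd (h.trans this) (by norm_num), fun h => absurd (h.trans this) (by norm_num),
        fun h => absurd (h.trans this) (by norm_num)⟩
    · rw [card_O_minus (m := 5) C.nd (by simp) (by omega)] at this
      simp [Finset.prod_range_succ] at this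
      exact ⟨fun h => absurd (h.trans this) (by norm_num), fun h => absurd (h.trans this) (by norm_num),
        fun h => absurd (h.trans this) (by norm_num)⟩
  · obtain ⟨k, k1, k2, e⟩ := mi.1 h
    rw [← e]
    refine ((pn k1 k2).resolve_right fun i => P.cc C hp p1 p2 p3 (ht n) y.1 ?_).1
    simpa only [e, coe_mul, coe_inv, rv (tH n), rv pH] using congrArg Subtype.val i
  · obtain ⟨a, a1, a2, rfl⟩ := mi.1 ha
    obtain ⟨d, d1, rfl⟩ := rs' d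
    have k : ∀ v, d * a * d⁻¹ * D.ζ v = D.ζ v * (d * a * d⁻¹) := fun v => by
      obtain ⟨l, x, y, j⟩ := P.tz C (inv_mem d1) (ht e1) (ht e1) (by rw [c]; decide) (by
        have := congrArg Subtype.val (show Commute (r d) _ from e).inv_left.eq
        simpa only [coe_mul, coe_inv, rv (tH _), rv d1, ← C.ρ_inv (cz d1)] using this) v
      have := a1.2.2.2 _ l fun i => by rw [j, c]; clear j; revert i x y; decide
      calc _ = d * (a * (d⁻¹ * D.ζ v * d⁻¹⁻¹)) * d⁻¹ := by group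
        _ = _ := by rw [this]; group
    have m := D.hK _ fun v => ⟨v, mul_inv_eq_iff_eq_mul.2 (k v)⟩
    rw [← rc d1 a2]
    exact ⟨mi.2 ⟨_, m, gH m (D.g_eq_one m k), rfl⟩, gp m (D.g_eq_one m k)⟩
  · have ne : ∀ {a b n m}, y * r (t a) * y⁻¹ = r (t n) → y * r (t b) * y⁻¹ = r (t m) → n = m → a = b := fun i j k =>
      tj (mul_left_cancel (mul_right_cancel (i.trans (k ▸ j.symm))))
    have z0 : y * r (t 0) * y⁻¹ = r (t 0) := by rw [t0]; group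
    obtain ⟨y, y1, rfl⟩ := rs' y
    have tz : ∀ {a n}, a ≠ 0 → r y * r (t a) * (r y)⁻¹ = r (t n) → ∀ v, _ := fun {a n} a0 i => P.tz C y1 (ht a) (ht n)
      (by rwa [c]) (by simpa only [coe_mul, rv (tH _), rv y1] using congrArg Subtype.val (mul_inv_eq_iff_eq_mul.1 i))
    refine mi.2 ⟨y, D.hK y fun v => ?_, y1, rfl⟩
    obtain ⟨l, a, b, j⟩ := tz (by decide) e v
    obtain ⟨-, a', b', j'⟩ := tz (by decide) e' v
    refine ((D.c_zero l).1 ?_).imp fun _ => Eq.symm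
    have k := (by decide +kernel : ∀ n m : N, n ≠ m → ∀ a a' : F, a • n = a' • m → a • n = 0 ∨ m = 0) n m
      fun i => absurd (ne e e' i) (by decide)
    have m0 : m ≠ 0 := fun i => absurd (ne e' z0 i) (by decide)
    rw [c] at j j'
    rw [j]
    ext i; fin_cases i
    exacts [(k _ _ (congrFun (j.symm.trans j') 0)).resolve_right m0, (k _ _ (congrFun (j.symm.trans j') 1)).resolve_right m0, rfl]
  · obtain ⟨s, s1, s2, rfl⟩ := mi.1 hs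
    exact P.ch C hp p1 p2 p3 s1 s2 (σe s1 s2 ▸ e1) (by simpa only [coe_mul, coe_one, rv s2] using congrArg Subtype.val e2)
      (by simpa only [coe_mul, coe_inv, rv s2, rv pH] using congrArg Subtype.val e3) fun a ha => by
        simpa only [coe_mul, rv s2, rv (VH ha)] using congrArg Subtype.val (e4 _ (mi.2 ⟨a, ha, VH ha, rfl⟩))
  · obtain ⟨a, a1, a2, -⟩ := D.V_surj (e := d2) (by decide +kernel)
    obtain ⟨k, k1, k2, k3⟩ := D.surj (Equiv.swap 0 1) 1 det_one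
    have m1 := mul_mem (mul_mem k1 a1.1) (inv_mem k1)
    have m := mul_mem a1.1 m1
    have g : D.g (a * (k * a * k⁻¹)) = 1 := by rw [D.g_mul a1.1 m1, D.g_conj k1 a1.1, a1.2.2.1, mul_one, D.g_inv k1, mul_one]
    have s := D.σ_mul a1.1 m1
    rw [D.σ_conj k1 a1.1, a2, k2] at s
    have n : r (a * (k * a * k⁻¹)) ∈ normalClosure (im D.V : Set C.Γ) := by
      have := subset_normalClosure (mi.2 ⟨a, a1, VH a1, rfl⟩)
      rw [rm (VH a1) (mul_mem (mul_mem (gH k1 k3) (VH a1)) (inv_mem (gH k1 k3))), rc (gH k1 k3) (VH a1)]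
      exact mul_mem this (normalClosure_normal.conj_mem _ this _)
    generalize a * (k * a * k⁻¹) = x at m g s n
    have g4 : D.g (x ^ 4) = 1 := by rw [D.g_pow m, g, one_pow]
    have xH := gH m g
    have rp : ∀ j, r (x ^ j) = r x ^ j := fun j => by rw [re xH, re (pow_mem xH j)]; exact map_pow rh ⟨_, xH⟩ j
    have f := P.fix3 C (pow_mem m 4) g4 (by rw [D.σ_pow m, s]; decide +kernel)
    have h2 := C.card_V
    rw [P.card] at h2
    refine ⟨r (x ^ 4), rp 4 ▸ pow_mem n 4, by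
      rw [rp, ← pow_mul, mul_comm 4 3, ← rp, pow_mul, D.pow4 ((D.ker (pow_mem m 3)).2 ⟨by rw [D.σ_pow m, s]; decide +kernel,
        by rw [D.g_pow m, g, one_pow]⟩), rk (one_mem _)]; exact one_mem _, fun e => ?_,
      burn (by omega) _ (rv (pow_mem xH 4) ▸ f.1) (rv (pow_mem xH 4) ▸ f.2)⟩
    have := P.σ ((rk (pow_mem xH 4)).1 e)
    rw [D.σ_pow m, s] at this
    exact absurd this (by decide +kernel)

end QD

end Cfsg.Lib.J4P
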