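import Cfsg.Agent.Lib.J4P.YD
import Cfsg.Agent.Lib.U6.Gen
import Cfsg.Agent.Lib.Orth.Count
import Cfsg.Agent.Lib.Orth.Spinor

/-! The action of `C(z)` on `Q / ⟨z⟩`. -/

set_option autoImplicit false
set_option synthInstance.maxSize 4096

namespace Cfsg.Lib.J4P

open Matrix hiding mul_inv_rev
open Subgroup Cfsg.Lib.BG Cfsg.Lib.Transfer Cfsg.Lib.L72 Cfsg.Lib.U6 Cfsg.Lib.Orth QuadraticMap
open scoped Cfsg.Lib.Transfer

variable {G : Type*} [Group G] {a b d h k l l' n p s u x y : G} {v w : V3} {Q : Subgroup G}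
  {W : Type*} [AddCommGroup W] [Module F W] {φ : QuadraticForm F W}

def P3 : M3 := !![0, 1, 0; 1, 1, 0; 0, 0, 1]

theorem blk {m : M3} (d : m.det = 1) (h1 : m 2 0 = 0) (h2 : m 2 1 = 0) :
    ((∃ a b, m * P3 = tv a b * P3 * m) ∧ ∃ a b, m = tv a b ∨ m = tv a b * P3 ∨ m = tv a b * (P3 * P3)) ∨
      (∃ a b, m * P3 = tv a b * (P3 * P3) * m) ∧ ∃ a b, m * tv a b ≠ tv a b * m := by
  have : ∀ a b c d e f g : F, det !![a, b, c; d, e, f; 0, 0, g] = 1 → let m : M3 := !![a, b, c; d, e, f; 0, 0, g]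
    ((∃ a b, m * P3 = tv a b * P3 * m) ∧ ∃ a b, m = tv a b ∨ m = tv a b * P3 ∨ m = tv a b * (P3 * P3)) ∨
      (∃ a b, m * P3 = tv a b * (P3 * P3) * m) ∧ ∃ a b, m * tv a b ≠ tv a b * m := by decide +kernel
  rw [eta_fin_three m, h1, h2] at d ⊢
  exact this _ _ _ _ _ _ _ d

theorem sig {S P a m b : O φ} {r : W} (h1 : S * P = P⁻¹ * S) (h2 : S.1 r = r) (a2 : a * a = 1) (m2 : m * m = 1)
    (aP : a * P = P * a) (aS : a * S = S * a) (mP : m * P = P * m) (mS : m * S = S * m) (bP : b * P = P * b) (bS : b * S = S * b)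
    (e : b * a = a * m * b) (q2 : ∀ x, a.1 (m.1 x + x) = m.1 x + x) (q3 : polar φ (P.1 (b.1 r + r)) (m.1 (b.1 r + r) + (b.1 r + r)) = 0) :
    polar φ (P.1 r) (m.1 r + r) = polar φ (P.1 (b.1 r + r)) (a.1 (b.1 r + r) + (b.1 r + r)) := by
  have ap : ∀ {x y z w : O φ}, x * y = z * w → ∀ v, x.1 (y.1 v) = z.1 (w.1 v) := fun h v => by rw [← O.mul_apply, h, O.mul_apply]
  have k : ∀ {u v}, S.1 u = u → S.1 v = v → polar φ (P.1 u) v = polar φ (P.1 v) u := fun {u v} i j => by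
    rw [← O.map_polar S, ap h1, i, j, O.polar_left, inv_inv, polar_comm]
  have cr : ∀ {c : O φ}, c * c = 1 → c * P = P * c → c * S = S * c → ∀ {u v}, S.1 u = u → S.1 v = v →
      polar φ (P.1 u) (c.1 v + v) = polar φ (P.1 v) (c.1 u + u) := fun {c} c2 cP cS u v i j => by
    rw [polar_add_right, polar_add_right, k i j, k i (by rw [← ap cS, j]), ← ap cP, O.polar_left, inv_eq_of_mul_eq_one_left c2]
  set u := b.1 r + r with hu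
  have uS : S.1 u = u := by rw [hu, map_add, ← ap bS, h2]
  have br : b.1 r = r + u := by rw [hu, add_comm (b.1 r), vadd_cancel]
  have e1 : polar φ (P.1 (b.1 r)) (a.1 (m.1 (b.1 r)) + b.1 r) = polar φ (P.1 r) (a.1 r + r) := by
    rw [← ap bP, ← O.mul_apply a, ← O.mul_apply (a * m), ← e, O.mul_apply, ← map_add, O.map_polar]
  have e2 : ∀ x, a.1 (m.1 x) + x = (m.1 x + x) + (a.1 x + x) := fun x => by
    rw [← q2 x, map_add, add_assoc, vadd_cancel]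
  rw [e2, br] at e1
  have e3 : ∀ (c : O φ), c.1 (r + u) + (r + u) = (c.1 r + r) + (c.1 u + u) := fun c => by rw [map_add]; abel
  simp only [e3, map_add P.1, polar_add_left] at e1
  simp only [polar_add_right _ _ (m.1 r + r + _), polar_add_right _ _ (m.1 r + r), polar_add_right _ _ (a.1 r + r), q3,
    cr m2 mP mS h2 uS, cr a2 aP aS h2 uS] at e1
  revert e1
  generalize polar φ (P.1 r) (m.1 r + r) = x1, polar φ (P.1 u) (m.1 r + r) = x2, polar φ (P.1 r) (a.1 r + r) = x3,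
    polar φ (P.1 u) (a.1 r + r) = x4, polar φ (P.1 u) (a.1 u + u) = x5
  revert x1 x2 x3 x4 x5; decide

theorem cz {z : G} (h : a ∈ 𝐂[z]) : Commute z a := commute_iff_mem.2 h

theorem Cd.g22 (D : Cd G) (hk : k ∈ D.K) (kH : k ∈ 𝐂[D.z]) : D.g k 2 2 = 1 := by
  have := D.det_g hk
  rw [det_fin_three, ((D.mem_H hk).1 kH).1, ((D.mem_H hk).1 kH).2] at this
  exact (z2 _).resolve_left fun j => by simp [j] at this

namespace QD

variable {D : Cd G} (P : QD D Q) (C : CD D.z Q φ)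
include P

theorem ρL (hl : l ∈ D.L) (hl' : l' ∈ D.L) (e : D.c l 2 = D.c l' 2) : C.ρ l = C.ρ l' := by
  rw [← C.ρ_mul_mem (cz (D.LH hl)) ((P.L (mul_mem (inv_mem hl) hl')).2 (by
    rw [D.c_mul (inv_mem hl) hl', D.c_inv hl, Pi.add_apply, e, add2])), mul_inv_cancel_left]

theorem ρR (hk : k ∈ D.K) (e : D.σ k = 1) {a b : F} (g : D.g k = tv a b) : ∃ l ∈ D.L, C.ρ k = C.ρ l := by
  obtain ⟨u, hu, j⟩ := P.surj a b
  have := D.mem_L (P.K hu) hk (by rw [e, P.σ hu]) (j.trans g.symm)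
  exact ⟨_, this, (C.ρ_mem_mul (inv_mem hu) (cz ((D.mem_H hk).2 (g ▸ ⟨rfl, rfl⟩)))).symm⟩

theorem cm1 (hl : l ∈ D.L) (x : W) : ∃ w ∈ D.L, w ∈ Q ∧ (∃ a b : F, D.c w = ![a • D.c l 2, b • D.c l 2, 0]) ∧
    (C.ρ l).1 x + x = C.π w := by
  obtain ⟨u, hu, rfl⟩ := C.π_surj x
  obtain ⟨a, b, e⟩ := P.g hu
  have m := D.nml (P.K hu) (inv_mem hl)
  have : l * u * l⁻¹ * u⁻¹ = l * (u * l⁻¹ * u⁻¹) := by group
  exact ⟨_, this ▸ mul_mem hl m, mul_mem (C.conj_mem (cz (D.LH hl)) hu) (inv_mem hu), ⟨a, b, by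
    rw [this, D.c_mul hl m, D.c_conj (P.K hu) (inv_mem hl), D.c_inv hl, P.σ hu, e, act_tv]⟩, (C.π_comm (cz (D.LH hl)) hu).symm⟩

theorem πζ (h : v 0 = w 0) (h' : v 1 = w 1) : C.π (D.ζ v) = C.π (D.ζ w) := by
  rw [← add0, ← C.π_mul (P.ζ v) (P.ζ w), ← D.ζ_add, C.π_eq_zero (P.ζ _), ← C.lg.mem_iff, D.mem_z]
  simp [h, h', add2]

theorem cm2 (hl : l ∈ D.L) (e : D.c l 2 ≠ 0) (v : V3) : ∃ x, (C.ρ l).1 x + x = C.π (D.ζ v) := by
  obtain ⟨m, j⟩ := f_nd _ e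
  obtain ⟨u, hu, c⟩ := D.c_surj ![v 1 • m, v 0 • m, 0]
  exact ⟨_, by rw [← C.π_comm (cz (D.LH hl)) ((P.L hu).2 (by rw [c]; rfl)), D.comm hl hu]; apply P.πζ <;> simp [β, c, j]⟩

theorem tz (hy : y ∈ 𝐂[D.z]) (hl : l ∈ D.L) (hl' : l' ∈ D.L) (e : D.c l 2 ≠ 0) (j : C.ρ y * C.ρ l = C.ρ l' * C.ρ y) (v : V3) :
    y * D.ζ v * y⁻¹ ∈ D.L ∧ ∃ a b : F, D.c (y * D.ζ v * y⁻¹) = ![a • D.c l' 2, b • D.c l' 2, 0] := by
  obtain ⟨x, i⟩ := P.cm2 C hl e v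
  obtain ⟨w, w1, w2, w3, w4⟩ := P.cm1 C hl' ((C.ρ y).1 x)
  rw [← O.mul_apply, ← j, O.mul_apply, ← map_add, i, ← C.π_conj (cz hy) (P.ζ v), eq_comm] at w4
  rcases (C.π_eq_iff w2 (C.conj_mem (cz hy) (P.ζ v))).1 w4 with i | i <;> rw [i]
  exacts [⟨w1, w3⟩, ⟨mul_mem w1 (D.ζ_mem _), by rwa [Cd.z, D.c_mul w1 (D.ζ_mem _), D.c_ζ, add_zero]⟩]

omit P in
theorem fixc (hk : k ∈ D.K) (kH : k ∈ 𝐂[D.z]) (hl : l ∈ D.L) (lQ : l ∈ Q) (e : (C.ρ k).1 (C.π l) = C.π l) :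
    act (D.σ k) (D.g k) (D.c l) = D.c l := by
  rw [← D.c_conj hk hl]
  rcases C.conj_of_fix (cz kH) lQ e with i | i <;> rw [i]
  rw [Cd.z, D.c_mul hl (D.ζ_mem _), D.c_ζ, add_zero]

theorem fpf (hp : p ∈ D.K) (p1 : D.σ p = 1) (p2 : D.g p = P3) {x : W} (e : (C.ρ p).1 x = x) : x = 0 := by
  have pH : p ∈ 𝐂[D.z] := (D.mem_H hp).2 (p2 ▸ ⟨rfl, rfl⟩)
  obtain ⟨u, hu, rfl⟩ := C.π_surj x
  obtain ⟨a, b, j⟩ := P.g hu
  have i := C.conj_of_fix (cz pH) hu e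
  have i1 : P3 * tv a b = tv a b * P3 := by
    rw [← p2, ← j, ← D.g_mul hp (P.K hu), show p * u = p * u * p⁻¹ * p by group, D.g_mul (P.K (C.conj_mem (cz pH) hu)) hp]
    rcases i with i | i <;> rw [i]
    rw [Cd.z, D.g_mul (P.K hu) (D.ζ_K _), D.g_L (D.ζ_mem _), mul_one]
  have uL := (D.ker (P.K hu)).2 ⟨P.σ hu, j.trans ((by decide : ∀ a b, P3 * tv a b = tv a b * P3 → tv a b = 1) a b i1)⟩
  have c := fixc C hp pH uL hu e
  have c0 := congrFun c 0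
  have c1 := congrFun c 1
  simp [p1, p2, act, P3] at c0 c1
  obtain ⟨v, rfl⟩ := (D.c_zero uL).1 (by ext i; fin_cases i <;> simp [c0, c1, (P.L uL).1 hu])
  rw [Cd.z, ← D.ζ_add, mul_inv_eq_iff_eq_mul, mul_inv_eq_iff_eq_mul, D.fix_iff hp, p2] at i
  rw [C.π_eq_zero hu, ← C.lg.mem_iff, D.mem_z]
  refine (by decide : ∀ v : V3, v ᵥ* P3 = v ∨ v = (v + ![0, 0, 1]) ᵥ* P3 → v 0 = 0 ∧ v 1 = 0) v (i.imp_right fun i => D.ζ_eq ?_)
  rw [← mul_left_cancel_iff (a := p), i, ← mul_inv_eq_iff_eq_mul.1 (p2 ▸ D.ζ_conj hp _)]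

theorem cp (hp : p ∈ D.K) (p1 : D.σ p = 1) (p2 : D.g p = P3) (p3 : p ^ 3 = 1) (hk : k ∈ D.K) (kH : k ∈ 𝐂[D.z]) (i : ℕ) {a b : F}
    (e : D.g k * P3 = tv a b * P3 ^ i * D.g k) : C.ρ k * C.ρ p * (C.ρ k)⁻¹ = C.ρ p ^ i := by
  have pH : p ∈ 𝐂[D.z] := (D.mem_H hp).2 (p2 ▸ ⟨rfl, rfl⟩)
  have m := mul_mem (mul_mem hk hp) (inv_mem hk)
  have mH := mul_mem (mul_mem kH pH) (inv_mem kH)
  have m' := inv_mem (pow_mem hp i)
  obtain ⟨l, hl, j⟩ := P.ρR C (mul_mem m m') (a := a) (b := b) (by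
    rw [D.σ_mul m m', D.σ_conj hk hp, D.σ_inv (pow_mem hp i), D.σ_pow hp, p1]; simp) (by
    rw [D.g_mul m m', D.g_conj hk hp, p2, e, mul_assoc _ (D.g k), D.g_inv hk, mul_one, ← p2, ← D.g_pow hp, mul_assoc,
      D.g_inv (pow_mem hp i), mul_one])
  rw [C.ρ_mul (cz mH) (cz (inv_mem (pow_mem pH i))), C.ρ_inv (cz (pow_mem pH i)), C.ρ_pow (cz pH), C.ρ_conj (cz kH) (cz pH),
    mul_inv_eq_iff_eq_mul] at j
  have c : Commute (C.ρ l) (C.ρ p) := (mul_inv_eq_iff_eq_mul.1 (by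
    rw [← C.ρ_conj (cz pH) (cz (D.LH hl))]
    exact P.ρL C (D.nml hp hl) hl (by simp [D.c_conj hp hl, p1, p2, act, P3]))).symm
  have p3' : C.ρ p ^ 3 = 1 := by rw [← C.ρ_pow (cz pH), p3, C.ρ_one]
  have l2 : C.ρ l * C.ρ l = 1 := C.ρ_sq (cz (D.LH hl)) (D.sq hl ▸ P.ζ _)
  have := congrArg (· ^ 3) j
  simp only [conj_pow, (c.pow_right i).mul_pow, p3', mul_one, mul_inv_cancel] at this
  rw [← pow_mul, mul_comm i, pow_mul, p3', one_pow, mul_one] at this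
  rw [j, show C.ρ l = 1 by rw [this, pow_three', l2, one_mul], one_mul]

theorem cc [Finite G] (hp : p ∈ D.K) (p1 : D.σ p = 1) (p2 : D.g p = P3) (p3 : p ^ 3 = 1) (hl : l ∈ D.L) (g : O φ)
    (e : g * C.ρ l * g⁻¹ * C.ρ p * (g * C.ρ l * g⁻¹)⁻¹ = (C.ρ p)⁻¹) : False := by
  have := C.finite
  have pH : p ∈ 𝐂[D.z] := (D.mem_H hp).2 (p2 ▸ ⟨rfl, rfl⟩)
  choose t ht c using D.c_surj
  let ω : F × F × V3 → W := fun x => C.π (t ![x.1 • D.c l 2, x.2.1 • D.c l 2, 0] * D.ζ x.2.2)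
  have k : ∀ x, ∃ i, (C.ρ l).1 x + x = ω i := fun x => by
    obtain ⟨w, w1, -, ⟨a, b, w3⟩, w4⟩ := P.cm1 C hl x
    obtain ⟨v, rfl⟩ := D.c_eq (ht _) w1 ((c _).trans w3.symm)
    exact ⟨(a, b, v), w4⟩
  have l2 : C.ρ l * C.ρ l = 1 := C.ρ_sq (cz (D.LH hl)) (D.sq hl ▸ P.ζ _)
  have p3' : C.ρ p ^ 3 = 1 := by rw [← C.ρ_pow (cz pH), p3, C.ρ_one]
  have e3 : C.ρ p = g * C.ρ l * g⁻¹ * (C.ρ p * g * C.ρ l * (C.ρ p * g)⁻¹) := by
    calc _ = (C.ρ p)⁻¹ * (C.ρ p)⁻¹ := by rw [o3_sq (x := (C.ρ p)⁻¹) (by rw [inv_pow, p3', inv_one]), inv_inv]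
      _ = _ := by nth_rw 1 [← e]; nth_rw 2 [← inv_eq_of_mul_eq_one_left l2]; group
  have k2 : ∀ (g : O φ) x, ∃ i, (g * C.ρ l * g⁻¹).1 x + x = g.1 (ω i) := fun g x =>
    let ⟨i, e⟩ := k ((g⁻¹).1 x); ⟨i, by rw [← e, map_add, O.apply_inv_apply]; rfl⟩
  have s : Function.Surjective fun x => (C.ρ p).1 x + x := Finite.injective_iff_surjective.1 fun x y j =>
    add0.1 (P.fpf C hp p1 p2 (add0.1 (by rw [map_add, add_add_add_comm]; exact add0.2 j)))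
  have := Nat.card_le_card_of_surjective (fun i : (F × F × V3) × (F × F × V3) => g.1 (ω i.1) + (C.ρ p * g).1 (ω i.2)) fun y => by
    obtain ⟨x, rfl⟩ := s y
    obtain ⟨j, h2⟩ := k2 (C.ρ p * g) x
    obtain ⟨i, h1⟩ := k2 g ((C.ρ p * g * C.ρ l * (C.ρ p * g)⁻¹).1 x)
    exact ⟨(i, j), by simp only [← h1, ← h2]; rw [add_assoc, vadd_cancel, ← O.mul_apply, ← e3]⟩
  have h2 := C.card_V
  rw [P.card] at h2
  simp at this
  omega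

theorem ch [Finite G] (hp : p ∈ D.K) (p1 : D.σ p = 1) (p2 : D.g p = P3) (p3 : p ^ 3 = 1) (hs : s ∈ D.K) (sH : s ∈ 𝐂[D.z])
    (s1 : D.σ s = 1) (s2 : C.ρ s * C.ρ s = 1) (sp : C.ρ s * C.ρ p * (C.ρ s)⁻¹ = (C.ρ p)⁻¹)
    (sA : ∀ a ∈ D.V, C.ρ s * C.ρ a = C.ρ a * C.ρ s) : False := by
  have pH : p ∈ 𝐂[D.z] := (D.mem_H hp).2 (p2 ▸ ⟨rfl, rfl⟩)
  have VH : ∀ {a}, a ∈ D.V → a ∈ 𝐂[D.z] := fun h => (D.mem_H h.1).2 (h.2.2.1 ▸ ⟨rfl, rfl⟩)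
  have p3' : C.ρ p ^ 3 = 1 := by rw [← C.ρ_pow (cz pH), p3, C.ρ_one]
  have gp : ∀ {k}, k ∈ D.K → D.g k = 1 → C.ρ k * C.ρ p = C.ρ p * C.ρ k := fun hk j => mul_inv_eq_iff_eq_mul.1
    ((P.cp C hp p1 p2 p3 hk ((D.mem_H hk).2 (j ▸ ⟨rfl, rfl⟩)) 1 (a := 0) (b := 0) (by rw [j]; decide)).trans (pow_one _))
  obtain ⟨a0, b0, j⟩ := ((blk (D.det_g hs) ((D.mem_H hs).1 sH).1 ((D.mem_H hs).1 sH).2).resolve_left fun ⟨⟨a, b, j⟩, _⟩ => by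
    have := P.cp C hp p1 p2 p3 hs sH 1 (by rwa [pow_one])
    rw [sp, pow_one, inv_eq_iff_mul_eq_one] at this
    rw [pow_three', this, one_mul] at p3'
    exact absurd (D.mem_z.1 (C.lg.mem_iff.2 ((C.π_eq_zero (P.ζ 1)).1 (P.fpf C hp p1 p2 (by rw [p3']; rfl))))).1 one_ne_zero).2
  obtain ⟨u, hu, j1⟩ := P.surj a0 b0
  have u' := C.conj_mem (cz sH) hu
  have rQ := mul_mem hu u'
  obtain ⟨a1, b1, j2⟩ := P.g rQ
  have j3 : ¬ (a1 = 0 ∧ b1 = 0) := fun i => j (by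
    rw [D.g_mul (P.K hu) (P.K u'), j1, i.1, i.2, D.g_conj hs (P.K hu), j1] at j2
    have : ∀ a b, tv a b * tv a b = tv 0 0 * 1 := by decide
    rw [← mul_one (_ * _), ← D.g_inv' hs, ← mul_assoc, ← one_mul (_ * _ * D.g s⁻¹), show (1 : M3) = tv 0 0 * 1 by decide, ← this a0 b0,
      mul_assoc (tv a0 b0), j2, show tv 0 0 = 1 by decide, mul_one])
  have rS : (C.ρ s).1 (C.π (u * (s * u * s⁻¹))) = C.π (u * (s * u * s⁻¹)) := by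
    rw [C.π_mul hu u', C.π_conj (cz sH) hu, map_add, ← O.mul_apply, s2, O.one_apply, add_comm]
  generalize u * (s * u * s⁻¹) = r at rQ j2 rS
  obtain ⟨m, hm, cm⟩ := D.c_surj ![0, 0, e1]
  have mV := (D.V_L hm).2 fun i => by rw [cm]; revert i; decide
  have key : ∀ e n, E1 e → ν e n + n = e1 → (polar φ ((C.ρ p).1 (C.π r)) ((C.ρ m).1 (C.π r) + C.π r) = 0 ↔ f n e1 = 0) := by
    intro e n he i
    obtain ⟨a, ha, rfl, a2⟩ := D.V_surj he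
    obtain ⟨l, hl, cl⟩ := D.c_surj ![0, 0, n]
    have lH := D.LH hl
    have w1 := D.nml (P.K rQ) (inv_mem hl)
    have w2 := mul_mem hl w1
    have w3 : D.c (l * (r * l⁻¹ * r⁻¹)) = ![a1 • n, b1 • n, 0] := by
      rw [D.c_mul hl w1, D.c_conj (P.K rQ) (inv_mem hl), D.c_inv hl, P.σ rQ, j2, act_tv, cl]; rfl
    have w4 := (P.L w2).2 (by rw [w3]; rfl)
    have w5 : (C.ρ l).1 (C.π r) + C.π r = C.π (l * (r * l⁻¹ * r⁻¹)) := by rw [← C.π_comm (cz lH) rQ]; congr 1; group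
    generalize l * (r * l⁻¹ * r⁻¹) = w at w2 w3 w4 w5
    have pw := D.nml hp w2
    have pw' := C.conj_mem (cz pH) w4
    rw [sig (mul_inv_eq_iff_eq_mul.1 sp) rS (a := C.ρ a) (b := C.ρ l) (C.ρ_sq (cz (VH ha)) (a2 ▸ one_mem _))
      (C.ρ_sq (cz (VH mV)) (D.V_sq mV ▸ one_mem _)) (gp ha.1 ha.2.2.1) (sA a ha).symm (gp mV.1 mV.2.2.1) (sA m mV).symm
      (gp (D.LK hl) (D.g_L hl)) ?_ ?_ (fun x => ?_) ?_, w5, ← C.π_conj (cz pH) w4, ← C.π_comm (cz (VH ha)) w4,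
      ← C.comm pw' (mul_mem (C.conj_mem (cz (VH ha)) w4) (inv_mem w4)), commute_iff_eq,
      D.comm_iff pw (mul_mem (D.nml ha.1 w2) (inv_mem w2)), D.c_mul (D.nml ha.1 w2) (inv_mem w2), D.c_inv w2, D.c_conj hp w2,
      D.c_conj ha.1 w2, p1, p2, ha.2.2.1, w3, ← i]
    · rcases z2 a1 with rfl | rfl <;> rcases z2 b1 with rfl | rfl <;>
        simp [β, act, P3, one_apply, funext_iff, Fin.forall_fin_succ, add2, add_assoc] at j3 ⊢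
    · exact (mul_inv_eq_iff_eq_mul.1 (by
        rw [← C.ρ_conj (cz sH) (cz lH)]; exact P.ρL C (D.nml hs hl) hl (by
          simp [D.c_conj hs hl, s1, act, cl, D.g22 hs sH]))).symm
    · have n1 := D.nml (inv_mem ha.1) hl
      rw [P.ρL C hm (mul_mem n1 (inv_mem hl)) (by
        rw [D.c_mul n1 (inv_mem hl), D.c_inv hl, D.c_conj (inv_mem ha.1) hl, inv_eq_of_mul_eq_one_left a2, ha.2.2.1, Pi.add_apply,
          act_one, cl, cm]; exact i.symm), ← C.ρ_mul (cz lH) (cz (VH ha)), ← C.ρ_mul (cz (VH ha)) (cz (D.LH (mul_mem n1 (inv_mem hl)))),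
        ← C.ρ_mul (cz (mul_mem (VH ha) (D.LH (mul_mem n1 (inv_mem hl))))) (cz lH)]
      congr 1; group
    · rw [w5, ← C.π_conj (cz pH) w4, ← C.π_comm (cz (VH mV)) w4, D.comm hm w2, ← C.comm pw' (P.ζ _)]
      exact D.ζ_comm pw _
    · obtain ⟨w, w1, w2, ⟨a, b, w3⟩, w4⟩ := P.cm1 C hm x
      rw [w4]
      refine C.fix_of_commute (cz (VH ha)) w2 (ha.2.2.2 w w1 fun i => ?_)
      rw [w3, cm]; clear w3; revert i a b; decide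
  exact absurd ((key d3 e3 (by decide +kernel) (by decide +kernel)).symm.trans (key (d2 * d3) e4 (by decide +kernel)
    (by decide +kernel))) (by decide)

end QD

end Cfsg.Lib.J4P
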